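import Cfsg.Agent.Comp.Known
import Cfsg.Agent.Spor.RankThree

/-!
Recognition of rank three groups from the point stabiliser: transport of an abstract rank three
action to a permutation model once the two suborbits are identified as sets with an action.
-/

set_option autoImplicit false

namespace Cfsg.Agent.R3

open Cfsg.Agent.Comp MulAction

section Img
variable {H Ω : Type*} [Group H] [MulAction H Ω] {H0 : Subgroup (Equiv.Perm ℕ)} (e : H ≃* H0)

/-- The image in the model of the stabiliser of a point. -/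
def img (ω : Ω) : Subgroup (Equiv.Perm ℕ) :=
  (stabilizer H ω).map (H0.subtype.comp e.toMonoidHom)

theorem mem_img {ω : Ω} {g : Equiv.Perm ℕ} :
    g ∈ img e ω ↔ ∃ h : H, h • ω = ω ∧ (e h : Equiv.Perm ℕ) = g := Iff.rfl

theorem img_le (ω : Ω) : img e ω ≤ H0 := by
  rintro _ ⟨h, -, rfl⟩
  exact (e h).2

theorem card_img (ω : Ω) : (orbit H ω).ncard * Nat.card (img e ω) = Nat.card H0 := by
  have hi : Function.Injective (H0.subtype.comp e.toMonoidHom) :=
    Subtype.val_injective.comp e.injective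
  rw [img, ← Nat.card_congr ((stabilizer H ω).equivMapOfInjective _ hi).toEquiv,
    ← Nat.card_congr e.toEquiv, ← (stabilizer H ω).index_mul_card, index_stabilizer]

theorem exists_conj_img (ω : Ω) {x : Equiv.Perm ℕ} (hx : x ∈ H0) :
    ∃ ω' ∈ orbit H ω, ∀ g, g ∈ img e ω' ↔ x⁻¹ * g * x ∈ img e ω := by
  refine ⟨e.symm ⟨x, hx⟩ • ω, mem_orbit _ _, fun g => ⟨?_, ?_⟩⟩
  · rintro ⟨h, h1, rfl⟩
    refine ⟨(e.symm ⟨x, hx⟩)⁻¹ * h * e.symm ⟨x, hx⟩, ?_, by simp⟩
    have h1' : h • e.symm ⟨x, hx⟩ • ω = e.symm ⟨x, hx⟩ • ω := h1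
    change _ • ω = ω
    rw [mul_smul, mul_smul, h1', inv_smul_smul]
  · rintro ⟨h, h1, h2⟩
    refine ⟨e.symm ⟨x, hx⟩ * h * (e.symm ⟨x, hx⟩)⁻¹, ?_, ?_⟩
    · have h1' : h • ω = ω := h1
      change _ • _ = _
      rw [mul_smul, mul_smul, inv_smul_smul, h1']
    · have h2' : (e h : Equiv.Perm ℕ) = x⁻¹ * g * x := h2
      simp [h2', mul_assoc]

theorem exists_fix_base {N D x : ℕ} {S : Subgroup (Equiv.Perm ℕ)} (hD : IsStab N H0 S x D) {b : Ω}
    {y : ℕ} (hy : y ∈ mset N D) (hfix : ∀ g ∈ img e b, g y = y) :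
    ∃ b' ∈ orbit H b, ∀ g ∈ img e b', g x = x := by
  obtain ⟨u, hu, rfl⟩ := (hD.orb y).2 hy
  obtain ⟨b', hb', h⟩ := exists_conj_img e b (inv_mem hu)
  refine ⟨b', hb', fun g hg => ?_⟩
  have := hfix _ ((h g).1 hg)
  simpa using this

theorem exists_orbMap {N D x : ℕ} {S : Subgroup (Equiv.Perm ℕ)} (hD : IsStab N H0 S x D) {b : Ω}
    (hfix : ∀ g ∈ img e b, g x = x) (hc : (orbit H b).ncard = (mset N D).card) :
    ∃ f : Ω → ℕ, (∀ h : H, f (h • b) = (e h : Equiv.Perm ℕ) x) ∧ Set.InjOn f (orbit H b) ∧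
      f '' orbit H b = mset N D := by
  classical
  have key : ∀ h h' : H, h • b = h' • b → (e h : Equiv.Perm ℕ) x = (e h' : Equiv.Perm ℕ) x := by
    intro h h' hh
    have := hfix (e (h'⁻¹ * h)) ⟨h'⁻¹ * h, by
      change _ • b = b
      rw [mul_smul, hh, inv_smul_smul], rfl⟩
    rw [map_mul, map_inv, Subgroup.coe_mul, Subgroup.coe_inv, Equiv.Perm.mul_apply,
      Equiv.Perm.inv_eq_iff_eq] at this
    exact this
  let f : Ω → ℕ := fun ω => if h : ∃ g : H, g • b = ω then (e h.choose : Equiv.Perm ℕ) x else 0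
  have hf : ∀ h : H, f (h • b) = (e h : Equiv.Perm ℕ) x := fun h => by
    have h1 : ∃ g : H, g • b = h • b := ⟨h, rfl⟩
    simp only [f, dif_pos h1]
    exact key _ _ h1.choose_spec
  have him : f '' orbit H b = mset N D := by
    ext i
    constructor
    · rintro ⟨_, ⟨h, rfl⟩, rfl⟩
      exact (hD.orb _).1 ⟨e h, (e h).2, (hf h).symm⟩
    · intro hi
      obtain ⟨g, hg, rfl⟩ := (hD.orb i).2 hi
      exact ⟨e.symm ⟨g, hg⟩ • b, mem_orbit _ _, by rw [hf]; simp⟩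
  have hx : x ∈ mset N D := (hD.orb x).1 ⟨1, one_mem _, rfl⟩
  have hfin : (orbit H b).Finite := Set.finite_of_ncard_pos (hc ▸ Finset.card_pos.2 ⟨x, hx⟩)
  refine ⟨f, hf, ?_, him⟩
  rw [← Set.ncard_image_iff hfin, him, hc, Set.ncard_coe_finset]

end Img

/-- `G'` is supported on `n` points and the stabiliser of `p` is `H0`. -/
structure Tr (n p : ℕ) (H0 G' : Subgroup (Equiv.Perm ℕ)) : Prop where
  supp : G' ≤ suppSub n
  stab : ∀ g, g ∈ H0 ↔ g ∈ G' ∧ g p = p

theorem Tr.le {n p : ℕ} {H0 G' : Subgroup (Equiv.Perm ℕ)} (h : Tr n p H0 G') : H0 ≤ G' :=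
  fun g hg => ((h.stab g).1 hg).1

theorem Tr.eq_of_le {n p : ℕ} {H0 G' G0 : Subgroup (Equiv.Perm ℕ)} (h : Tr n p H0 G') (hp : p < n)
    (hle : G0 ≤ G') (hH : H0 ≤ G0) (ht : ∀ i < n, ∃ g ∈ G0, g p = i) : G' = G0 := by
  refine le_antisymm (fun g hg => ?_) hle
  obtain ⟨m, hm, e⟩ := ht _ (Supp.lt (h.supp hg) hp)
  have : m⁻¹ * g ∈ G0 := hH ((h.stab _).2 ⟨mul_mem (inv_mem (hle hm)) hg, by
    rw [Equiv.Perm.mul_apply, ← e]; simp⟩)
  simpa using mul_mem hm this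

section Rank
variable {G Ω : Type*} [Group G] [MulAction G Ω] [Fintype Ω]

theorem not_mem_orbit_of_lt {a b : Ω} (hb : 1 < (orbit (stabilizer G a) b).ncard) :
    a ∉ orbit (stabilizer G a) b := fun hx => by
  have : (orbit (stabilizer G a) b).ncard = 1 := by
    rw [← orbit_eq_iff.2 hx, Set.ncard_eq_one]
    refine ⟨a, Set.eq_singleton_iff_unique_mem.2 ⟨mem_orbit_self a, ?_⟩⟩
    rintro _ ⟨g, rfl⟩
    exact g.2
  omega

theorem disjoint_orbit_of_ne {H : Type*} [Group H] [MulAction H Ω] {b c : Ω}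
    (h : (orbit H b).ncard ≠ (orbit H c).ncard) : Disjoint (orbit H b) (orbit H c) := by
  rw [Set.disjoint_left]
  intro x h1 h2
  rw [← orbit_eq_iff.2 h1, orbit_eq_iff.2 h2] at h
  exact h rfl

theorem cover_orbits {a b c : Ω} {k m : ℕ} (hb : (orbit (stabilizer G a) b).ncard = k)
    (hc : (orbit (stabilizer G a) c).ncard = m) (hk : 1 < k) (hm : 1 < m) (hkm : k ≠ m)
    (hΩ : Fintype.card Ω = 1 + k + m) (x : Ω) :
    x = a ∨ x ∈ orbit (stabilizer G a) b ∨ x ∈ orbit (stabilizer G a) c := by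
  have hab := not_mem_orbit_of_lt (G := G) (a := a) (b := b) (by omega)
  have hac := not_mem_orbit_of_lt (G := G) (a := a) (b := c) (by omega)
  have hbc := disjoint_orbit_of_ne (H := stabilizer G a) (b := b) (c := c) (by omega)
  have : insert a (orbit (stabilizer G a) b ∪ orbit (stabilizer G a) c) = Set.univ := by
    refine Set.eq_of_subset_of_ncard_le (Set.subset_univ _) ?_
    rw [Set.ncard_insert_of_notMem (by simp [hab, hac]), Set.ncard_union_eq hbc, hb, hc,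
      Set.ncard_univ, Nat.card_eq_fintype_card, hΩ]
    omega
  have h1 : x ∈ insert a (orbit (stabilizer G a) b ∪ orbit (stabilizer G a) c) := by
    rw [this]; trivial
  simpa using h1

theorem exists_swap [IsPretransitive G Ω] {a b c : Ω} {k m : ℕ}
    (hb : (orbit (stabilizer G a) b).ncard = k) (hc : (orbit (stabilizer G a) c).ncard = m)
    (hk : 1 < k) (hm : 1 < m) (hkm : k ≠ m) (hΩ : Fintype.card Ω = 1 + k + m) :
    ∃ t : G, t • a = b ∧ t • b = a := by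
  classical
  obtain ⟨hadj, -⟩ := Spor.orbitalGraph_isSRG hb hc hk hm hkm hΩ
  obtain ⟨g, hg⟩ := exists_smul_eq G a b
  have h1 : (Spor.orbitalGraph G a b).Adj a b := (hadj b).2 (mem_orbit_self b)
  have h2 : (Spor.orbitalGraph G a b).Adj (g • a) (g • g⁻¹ • a) := by
    rw [smul_inv_smul, hg]; exact h1.symm
  rw [Spor.orbitalGraph_adj_smul, hadj] at h2
  obtain ⟨h, hh⟩ := h2
  have hh' : (h : G) • b = g⁻¹ • a := hh
  have ha : (h : G) • a = a := h.2
  exact ⟨g * h, by rw [mul_smul, ha, hg], by rw [mul_smul, hh', smul_inv_smul]⟩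

end Rank

/-- Transport of a rank three group to the model. -/
theorem transport {Ω : Type*} [Fintype Ω] {G : Subgroup (Equiv.Perm Ω)} [IsPretransitive G Ω]
    {a b c : Ω} {H0 : Subgroup (Equiv.Perm ℕ)} (e : stabilizer G a ≃* H0) {N n p x y D E k m : ℕ}
    {S T : Subgroup (Equiv.Perm ℕ)} (hs : H0 ≤ suppSub n) (hp : ∀ g ∈ H0, g p = p)
    (h1 : IsStab N H0 S x D) (h2 : IsStab N H0 T y E) (hk : (mset N D).card = k)
    (hm : (mset N E).card = m) (hb : (orbit (stabilizer G a) b).ncard = k)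
    (hc : (orbit (stabilizer G a) c).ncard = m) (hk1 : 1 < k) (hm1 : 1 < m) (hkm : k ≠ m)
    (hΩ : Fintype.card Ω = 1 + k + m) (hn : n = 1 + k + m)
    (hcov : ∀ i < n, i = p ∨ i ∈ mset N D ∨ i ∈ mset N E)
    (hx : ∀ g ∈ img e b, g x = x) (hy : ∀ g ∈ img e c, g y = y) :
    ∃ G' : Subgroup (Equiv.Perm ℕ), Nonempty (G ≃* G') ∧ Tr n p H0 G' ∧
      ∃ t ∈ G', t p = x ∧ t x = p := by
  classical
  obtain ⟨f1, e1, -, m1⟩ := exists_orbMap e h1 hx (hb.trans hk.symm)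
  obtain ⟨f2, e2, -, m2⟩ := exists_orbMap e h2 hy (hc.trans hm.symm)
  have hab := not_mem_orbit_of_lt (G := G) (a := a) (b := b) (by omega)
  have hac := not_mem_orbit_of_lt (G := G) (a := a) (b := c) (by omega)
  have hbc := disjoint_orbit_of_ne (H := stabilizer G a) (b := b) (c := c) (by omega)
  let φ : Ω → ℕ := fun ω => if ω ∈ orbit (stabilizer G a) b then f1 ω else
    if ω ∈ orbit (stabilizer G a) c then f2 ω else p
  have φa : φ a = p := by simp only [φ, if_neg hab, if_neg hac]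
  have φb : ∀ h : stabilizer G a, φ (h • b) = (e h : Equiv.Perm ℕ) x := fun h => by
    simp only [φ, if_pos (mem_orbit b h), e1]
  have φc : ∀ h : stabilizer G a, φ (h • c) = (e h : Equiv.Perm ℕ) y := fun h => by
    simp only [φ, if_neg (Set.disjoint_right.1 hbc (mem_orbit c h)), if_pos (mem_orbit c h), e2]
  have φe : ∀ (h : stabilizer G a) ω, φ (h • ω) = (e h : Equiv.Perm ℕ) (φ ω) := by
    intro h ω
    rcases cover_orbits hb hc hk1 hm1 hkm hΩ ω with rfl | ⟨g, rfl⟩ | ⟨g, rfl⟩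
    · rw [show h • ω = ω from h.2, φa, hp _ (e h).2]
    · dsimp only
      rw [← mul_smul, φb, φb, map_mul, Subgroup.coe_mul, Equiv.Perm.mul_apply]
    · dsimp only
      rw [← mul_smul, φc, φc, map_mul, Subgroup.coe_mul, Equiv.Perm.mul_apply]
  have hsurj : ∀ i < n, ∃ ω, φ ω = i := by
    intro i hi
    rcases hcov i hi with rfl | h | h
    · exact ⟨a, φa⟩
    · obtain ⟨g, hg, rfl⟩ := (h1.orb i).2 h
      exact ⟨e.symm ⟨g, hg⟩ • b, by rw [φb]; simp⟩
    · obtain ⟨g, hg, rfl⟩ := (h2.orb i).2 h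
      exact ⟨e.symm ⟨g, hg⟩ • c, by rw [φc]; simp⟩
  have hsub : Finset.range n ⊆ Finset.univ.image φ := fun i hi => by
    obtain ⟨ω, h⟩ := hsurj i (Finset.mem_range.1 hi)
    exact Finset.mem_image.2 ⟨ω, Finset.mem_univ _, h⟩
  have hle : (Finset.univ.image φ).card ≤ (Finset.range n).card := by
    refine Finset.card_image_le.trans ?_
    rw [Finset.card_univ, Finset.card_range, hΩ, hn]
  have heq := Finset.eq_of_subset_of_card_le hsub hle
  have hinj : Function.Injective φ := by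
    have : Set.InjOn φ (Finset.univ : Finset Ω) := by
      rw [← Finset.card_image_iff, ← heq, Finset.card_univ, Finset.card_range, hΩ, hn]
    exact fun u v h => this (by simp) (by simp) h
  have hlt : ∀ ω, φ ω < n := fun ω =>
    Finset.mem_range.1 (heq ▸ Finset.mem_image.2 ⟨ω, Finset.mem_univ _, rfl⟩)
  let ι : Ω ↪ ℕ := ⟨φ, hinj⟩
  let ρ := Equiv.Perm.viaEmbeddingHom ι
  have ρ1 : ∀ g ω, ρ g (φ ω) = φ (g ω) := fun g ω => Equiv.Perm.viaEmbedding_apply g ι ω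
  have ρ2 : ∀ g, Supp n (ρ g) := fun g i hi =>
    Equiv.Perm.viaEmbedding_apply_of_notMem g ι i (by
      rintro ⟨ω, rfl⟩
      exact absurd (hlt ω) (not_lt.2 hi))
  have ρ3 : ∀ h : stabilizer G a, ρ (h : G) = e h := by
    intro h
    ext i
    by_cases hi : i < n
    · obtain ⟨ω, rfl⟩ := hsurj i hi
      rw [ρ1, ← φe]; rfl
    · rw [ρ2 _ i (not_lt.1 hi), hs (e h).2 i (not_lt.1 hi)]
  refine ⟨G.map ρ, ⟨G.equivMapOfInjective ρ (Equiv.Perm.viaEmbeddingHom_injective ι)⟩,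
    ⟨?_, fun g => ⟨fun hg => ?_, ?_⟩⟩, ?_⟩
  · rintro _ ⟨g, -, rfl⟩
    exact ρ2 g
  · refine ⟨⟨(e.symm ⟨g, hg⟩ : G), (e.symm ⟨g, hg⟩ : G).2, by rw [ρ3]; simp⟩, hp g hg⟩
  · rintro ⟨⟨g, hg, rfl⟩, h⟩
    rw [← φa, ρ1] at h
    have := ρ3 ⟨⟨g, hg⟩, hinj h⟩
    exact this ▸ (e _).2
  · obtain ⟨t, t1, t2⟩ := exists_swap hb hc hk1 hm1 hkm hΩ
    have hb' : φ b = x := by simpa using φb 1
    refine ⟨ρ t, ⟨t, t.2, rfl⟩, ?_, ?_⟩
    · rw [← φa, ρ1, ← hb']; exact congrArg φ t1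
    · rw [← hb', ρ1, ← φa]; exact congrArg φ t2

end Cfsg.Agent.R3
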