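import Cfsg.Agent.R3.Tools

/-!
Recognition of rank three groups: the centraliser of a permutation group in the symmetric group,
permutations normalising a group of words, the last step, common neighbours.
-/

set_option autoImplicit false

namespace Cfsg.Agent.R3

open Cfsg.Agent.Comp MulAction
open scoped Pointwise

/-- An orbit of the group: a point, rounds, words (over the generators) fixing the point, and
centralising permutations with the images of the point. -/
structure CE where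
  p : ℕ
  r : ℕ
  ws : List (List ℕ)
  cs : List (List ℕ × ℕ)

/-- The word `u` commutes with the words `kws`. -/
noncomputable def comW (N w : ℕ) (ns : List Net) (kws : List (List ℕ)) (u : List ℕ) : Bool :=
  allL kws fun k => eqW N w ns (appendR k u) (appendR u k)

theorem of_comW {N w : ℕ} {ns : List Net} (c : Ctx N w ns) {kws : List (List ℕ)} {u : List ℕ}
    (h : comW N w ns kws u = true) : ∀ k ∈ gen ns kws, k * wp ns u = wp ns u * k := by
  have : gen ns kws ≤ Subgroup.centralizer {wp ns u} := gen_le_iff.2 fun k hk => by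
    rw [Subgroup.mem_centralizer_singleton_iff]
    have := wp_eq_of_eqW c ((allL_iff _ _).1 h k hk)
    simpa using this
  exact fun k hk => Subgroup.mem_centralizer_singleton_iff.1 (this hk)

/-- The check of a list of orbits; the argument is the mask of the points already done. -/
noncomputable def centB (N w : ℕ) (ns : List Net) (n : ℕ) (kws : List (List ℕ)) (Ms : List ℕ)
    (es : List CE) : ℕ → Bool :=
  List.rec (motive := fun _ => ℕ → Bool) (fun Dn => subB (ones n) Dn) (fun e _ ih Dn =>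
    force (orb ns kws e.r e.p) fun O => force (pcN N w O) fun s =>
    and' (Nat.blt e.p n) (and' (not' (tb Dn e.p))
    (and' (allL e.ws fun v => mapsW ns (subW kws v) e.p e.p)
    (and' (allL e.cs fun c => and' (mapsW ns c.1 e.p c.2) (force (movM N w ns c.1) fun M =>
      and' (Nat.beq (Nat.land M Dn) 0) (and' (subB M (ones n)) (comW N w ns kws c.1))))
    (and' (subB (ones n) (Nat.lor (orL e.ws fun v => movM N w ns (subW kws v)) (Nat.lor Dn
      (Nat.lor (orL Ms fun M => ite' (Nat.blt (pcN N w M) s) M 0)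
        (orL e.cs fun c => Nat.shiftLeft 1 c.2)))))
      (force (Nat.lor Dn O) ih)))))) es

/-- The products of the centralising permutations. -/
noncomputable def cands (es : List CE) : List (List ℕ) :=
  List.rec (motive := fun _ => List (List ℕ)) [[]]
    (fun e _ ih => flatR (fun c => mapR (appendR c.1) ih) e.cs) es

theorem cent_of_centB {N w : ℕ} {ns : List Net} (c : Ctx N w ns) {n : ℕ} (hn : n ≤ N)
    {kws : List (List ℕ)} {Ms : List ℕ} (hM : allL Ms (invAll ns kws) = true) {es : List CE}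
    {Dn : ℕ} (h : centB N w ns n kws Ms es Dn = true) {y : Equiv.Perm ℕ} (hy : Supp n y)
    (hc : ∀ k ∈ gen ns kws, k * y = y * k) (hD : ∀ i < N, Dn.testBit i = true → y i = i) :
    ∃ u ∈ cands es, y = wp ns u := by
  induction es generalizing Dn y with
  | nil =>
    refine ⟨[], List.mem_singleton_self _, Equiv.ext fun i => ?_⟩
    by_cases hi : i < n
    · exact hD i (by omega) (of_subB h (by simp [testBit_ones, hi]))
    · exact hy i (not_lt.1 hi)
  | cons e es ih =>
    have e1 : centB N w ns n kws Ms (e :: es) Dn =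
      force (orb ns kws e.r e.p) fun O => force (pcN N w O) fun s =>
      and' (Nat.blt e.p n) (and' (not' (tb Dn e.p))
      (and' (allL e.ws fun v => mapsW ns (subW kws v) e.p e.p)
      (and' (allL e.cs fun c => and' (mapsW ns c.1 e.p c.2) (force (movM N w ns c.1) fun M =>
        and' (Nat.beq (Nat.land M Dn) 0) (and' (subB M (ones n)) (comW N w ns kws c.1))))
      (and' (subB (ones n) (Nat.lor (orL e.ws fun v => movM N w ns (subW kws v)) (Nat.lor Dn
        (Nat.lor (orL Ms fun M => ite' (Nat.blt (pcN N w M) s) M 0)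
          (orL e.cs fun c => Nat.shiftLeft 1 c.2)))))
        (force (Nat.lor Dn O) (centB N w ns n kws Ms es)))))) := rfl
    rw [e1] at h
    simp only [force_eq, and'_eq_true, not'_eq_true, blt_iff, tb_eq, allL_iff, beq_iff] at h
    obtain ⟨h1, h2, h3, h4, h5, h6⟩ := h
    have hp : e.p < N := by omega
    have hyN : Supp N y := fun i hi => hy i (by omega)
    have hq : y e.p < n := hy.lt h1
    have := of_subB (i := y e.p) h5 (by simp [testBit_ones, hq])
    simp only [testBit_lor', testBit_orL] at this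
    rcases this with ⟨v, hv, h7⟩ | h7 | ⟨M, hM', h7⟩ | ⟨d, hd, h7⟩
    · refine absurd ?_ ((testBit_movM c _ _).1 h7)
      have := congrArg (fun g : Equiv.Perm ℕ => g e.p) (hc _ (subW_mem ns kws v))
      simpa [wp_apply_of_mapsW c.ok hp (h3 v hv)] using this
    · have := y.injective (hD _ (by omega) h7)
      rw [this] at h7
      exact absurd h7 h2
    · exfalso
      rw [ite'_eq] at h7
      split_ifs at h7 with h8
      · rw [blt_iff, pcN_eq c.le, pcN_eq c.le] at h8
        refine absurd (Finset.card_le_card_of_injOn y (fun i hi => ?_)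
          (y.injective.injOn)) (not_le.2 h8)
        obtain ⟨hi1, hi2⟩ := mem_mset.1 hi
        obtain ⟨g, hg, rfl⟩ := exists_of_orb c.ok (fun u hu => wp_mem_gen ns hu) hi1 hi2
        refine mem_mset.2 ⟨hyN.lt hi1, ?_⟩
        have := congrArg (fun g : Equiv.Perm ℕ => g e.p) (hc g hg)
        simp only [Equiv.Perm.mul_apply] at this
        rw [← this, inv_of_invAll c.ok ((allL_iff _ _).1 hM M hM') hg, h7]
      · simp at h7
    · rw [testBit_one_shl] at h7
      obtain ⟨h8, h9, h10, h11⟩ := h4 d hd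
      have h12 := wp_apply_of_mapsW c.ok hp h8
      have h13 := of_comW c h11
      have hs : Supp n (wp ns d.1) := fun i hi => by
        by_contra h14
        have := of_subB h10 ((testBit_movM c _ _).2 h14)
        rw [testBit_ones, decide_eq_true_eq] at this
        omega
      have hc' : ∀ k ∈ gen ns kws, k * ((wp ns d.1)⁻¹ * y) = (wp ns d.1)⁻¹ * y * k := by
        intro k hk
        rw [mul_assoc, ← hc k hk, ← mul_assoc, ← mul_assoc]
        congr 1
        rw [mul_inv_eq_iff_eq_mul, mul_assoc, h13 k hk, inv_mul_cancel_left]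
      have hp' : ((wp ns d.1)⁻¹ * y) e.p = e.p := by
        rw [Equiv.Perm.mul_apply, Equiv.Perm.inv_eq_iff_eq, h12, h7]
      obtain ⟨u, hu, h14⟩ := ih h6 (hs.inv.mul hy) hc' fun i hi h14 => by
        rcases (testBit_lor' _ _ _).1 h14 with h15 | h15
        · rw [Equiv.Perm.mul_apply, hD i hi h15, Equiv.Perm.inv_eq_iff_eq, eq_comm]
          by_contra h16
          have h17 : (movM N w ns d.1 &&& Dn).testBit i = true := by
            rw [Nat.testBit_and, (testBit_movM c _ _).2 h16, h15]; rfl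
          have h18 : movM N w ns d.1 &&& Dn = 0 := h9
          simp [h18] at h17
        · obtain ⟨g, hg, rfl⟩ := exists_of_orb c.ok (fun u hu => wp_mem_gen ns hu) hi h15
          have := congrArg (fun g : Equiv.Perm ℕ => g e.p) (hc' g hg)
          simp only [Equiv.Perm.mul_apply] at this hp' ⊢
          rw [← this, hp']
      refine ⟨appendR d.1 u, ?_, by rw [appendR_eq, wp_append, ← h14]; simp⟩
      change _ ∈ flatR (fun c => mapR (appendR c.1) (cands es)) e.cs
      rw [flatR_eq, List.mem_flatMap]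
      exact ⟨d, hd, by rw [mapR_eq]; exact List.mem_map_of_mem hu⟩

/-- The word `u` maps the points of `D` below `N` into `D`. -/
noncomputable def presB (N : ℕ) (ns : List Net) (u : List ℕ) (D : ℕ) : Bool :=
  subB (Nat.land D (ones N)) (appW 1 ns u D)

theorem presB_of_mem {N : ℕ} {ns : List Net} (hns : okNs N ns = true) {u : List ℕ} {D : ℕ}
    (h : wp ns u ∈ maskStab D) : presB N ns u D = true := by
  refine (beq_iff _ _).2 (Nat.eq_of_testBit_eq fun i => ?_)
  change ((D &&& ones N) &&& appW 1 ns u D).testBit i = (D &&& ones N).testBit i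
  rw [Nat.testBit_and, Nat.testBit_and, testBit_ones]
  by_cases hi : i < N
  · rw [testBit_appW_one hns u D hi, h i]
    cases D.testBit i <;> simp
  · simp [hi]

/-- The candidate `u` for an element exchanging `p` and `q` does not exchange them, or leads to an
element fixing `p` that does not preserve `D`, or to an element fixing `p` and `q` that does not
preserve a member of `Ms`, or to an element of the model group. -/
noncomputable def finB (N w : ℕ) (ns : List Net) (n p q D K : ℕ) (Ms : List ℕ)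
    (hws kills : List (List ℕ)) (goods : List (List ℕ × List ℕ × ℕ)) (u : List ℕ) : Bool :=
  or' (not' (and' (mapsW ns u p q) (mapsW ns u q p)))
    (or' (anyL kills fun v => and' (mapsW ns (subW (u :: hws) v) p p)
        (or' (not' (presB N ns (subW (u :: hws) v) D)) (and' (mapsW ns (subW (u :: hws) v) q q)
          (not' (allL Ms (presB N ns (subW (u :: hws) v)))))))
      (anyL goods fun g => and' (inK K g.2.1) (and' (eqW N w ns (subW (u :: hws) g.1) g.2.1)
        (subB (ones n) (orb ns (g.2.1 :: hws) g.2.2 p)))))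

theorem eq_of_finB {N w : ℕ} {ns : List Net} (c : Ctx N w ns) {n p q D K E : ℕ} (hp : p < n)
    (hq : q < n) (hn : n ≤ N) {hws kws kills : List (List ℕ)}
    {goods : List (List ℕ × List ℕ × ℕ)}
    {G' G0 : Subgroup (Equiv.Perm ℕ)} (hT : Tr n p (gen ns hws) G') (hs : G0 ≤ suppSub n)
    (h0 : IsStab N G0 (gen ns hws) p E) (hK : Known ns G0 K)
    (hq' : IsStab N (gen ns hws) (gen ns kws) q D) {Ms : List ℕ}
    (hM : allL Ms (invAll ns kws) = true)
    (hD' : invAll ns hws D = true) {u : List ℕ} (hu : wp ns u ∈ G') (h1 : wp ns u p = q)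
    (h2 : wp ns u q = p) (h : finB N w ns n p q D K Ms hws kills goods u = true) : G' = G0 := by
  have hle : gen ns (u :: hws) ≤ G' := gen_le_iff.2 fun v hv => by
    rcases List.mem_cons.1 hv with rfl | hv
    exacts [hu, hT.le (wp_mem_gen ns hv)]
  simp only [finB, or'_eq_true, not'_eq_true, and'_eq_true, anyL_iff] at h
  rcases h with h | ⟨v, -, h3, h4⟩ | ⟨g, -, h3, h4, h5⟩
  · exact absurd ⟨(mapsW_iff c.ok (by omega)).2 h1, (mapsW_iff c.ok (by omega)).2 h2⟩ h
  · have h5 := (hT.stab _).2 ⟨hle (subW_mem ns _ v), wp_apply_of_mapsW c.ok (by omega) h3⟩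
    rcases h4 with h4 | ⟨h4, h6⟩
    · exact absurd (presB_of_mem c.ok (gen_le_maskStab c.ok hD' h5)) h4
    · refine absurd ((allL_iff _ _).2 fun M hM' => presB_of_mem c.ok ?_) h6
      exact gen_le_maskStab c.ok ((allL_iff _ _).1 hM M hM')
        (hq'.stab _ h5 (wp_apply_of_mapsW c.ok (by omega) h4))
  · have h6 : ∀ v ∈ g.2.1 :: hws, wp ns v ∈ G' ⊓ G0 := fun v hv => by
      rcases List.mem_cons.1 hv with rfl | hv
      · exact ⟨wp_eq_of_eqW c h4 ▸ hle (subW_mem ns _ _), hK.word h3⟩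
      · exact ⟨hT.le (wp_mem_gen ns hv), h0.le (wp_mem_gen ns hv)⟩
    have h7 : ∀ i < n, ∃ m ∈ G' ⊓ G0, m p = i := fun i hi =>
      exists_of_orb c.ok h6 (by omega) (of_subB h5 (by simp [testBit_ones, hi]))
    refine hT.eq_of_le hp (fun x hx => ?_) h0.le fun i hi => ?_
    · obtain ⟨m, hm, e⟩ := h7 _ (Supp.lt (hs hx) hp)
      have : m⁻¹ * x ∈ G' := hT.le (h0.stab _ (mul_mem (inv_mem hm.2) hx) (by
        rw [Equiv.Perm.mul_apply, ← e]; simp))
      simpa using mul_mem hm.1 this
    · obtain ⟨m, hm, e⟩ := h7 i hi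
      exact ⟨m, hm.2, e⟩

/-- The survivors of the automorphism search are induced by the words `sg`. -/
noncomputable def sigB (N w : ℕ) (ns : List Net) (o : OD) (sv : List (ℕ × List ℕ))
    (sg : List (List ℕ)) : Bool :=
  allL sv fun e => anyL sg fun s => and' (eqW N w ns (appendR s o.a) (appendR (powW o.a e.1) s))
    (and' (eqW N w ns (appendR s o.b) (appendR o.b s)) (eqW N w ns (appendR s o.c) (appendR e.2 s)))

theorem norm_of_od {N w : ℕ} {ns : List Net} (ctx : Ctx N w ns) {E : List ℕ → ℕ → ℕ}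
    (hE : Evl N ns E) {G : Subgroup (Equiv.Perm ℕ)} {o : OD} {n : ℕ} (hn : Nat.card G = n)
    (hr : o.r.Prime) (hG : G = gen ns [o.a, o.b, o.c]) (h : o.chk N w ns n = true)
    (hC : ∀ x ∈ G, x * wp ns o.a = wp ns o.a * x → x ∈ gen ns [o.a]) {cs : List (List ℕ)}
    (hX : ∀ x ∈ G, x * wp ns (powW o.b o.m) = wp ns (powW o.b o.t) * x →
      ∃ k ∈ gen ns [o.b], ∃ c ∈ cs, k * x = wp ns c)
    {sv : List (ℕ × List ℕ)} {tps : List ℕ} (hk : ∀ c' ∈ cs, o.kill N E sv tps c' = true)
    {sg : List (List ℕ)} (hs : sigB N w ns o sv sg = true) {t : Equiv.Perm ℕ}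
    (ht : ∀ x, x ∈ G ↔ t * x * t⁻¹ ∈ G) :
    ∃ k ∈ G, ∃ s ∈ sg, ∀ x ∈ G, x * ((wp ns s)⁻¹ * k * t) = (wp ns s)⁻¹ * k * t * x := by
  have ht' : t ∈ Subgroup.normalizer (G : Set (Equiv.Perm ℕ)) :=
    Subgroup.mem_normalizer_iff.2 ht
  have ma : wp ns o.a ∈ G := hG ▸ wp_mem_gen ns (by simp)
  have mb : wp ns o.b ∈ G := hG ▸ wp_mem_gen ns (by simp)
  have mc : wp ns o.c ∈ G := hG ▸ wp_mem_gen ns (by simp)
  obtain ⟨g, e, he, h1, h2, h3⟩ := OD.normal_form ctx hE hn hr hG h hC hX hk
    (G.normalizerMonoidHom ⟨t, ht'⟩) (a := ⟨_, ma⟩) (b := ⟨_, mb⟩) (c := ⟨_, mc⟩) rfl rfl rfl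
  obtain ⟨s, hs', h4⟩ := (anyL_iff _ _).1 ((allL_iff _ _).1 hs e he)
  simp only [and'_eq_true] at h4
  have h5 := wp_eq_of_eqW ctx h4.1
  have h6 := wp_eq_of_eqW ctx h4.2.1
  have h7 := wp_eq_of_eqW ctx h4.2.2
  simp only [appendR_eq, wp_append, wp_powW] at h5 h6 h7
  have k : ∀ x : G, (((MulAut.conj g * G.normalizerMonoidHom ⟨t, ht'⟩) x : G) : Equiv.Perm ℕ) =
      g * (t * x * t⁻¹) * (g : Equiv.Perm ℕ)⁻¹ := fun x => rfl
  have k' : ∀ x y : Equiv.Perm ℕ, g * (t * x * t⁻¹) * (g : Equiv.Perm ℕ)⁻¹ = y →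
      wp ns s * x = y * wp ns s →
      x ∈ Subgroup.centralizer {(wp ns s)⁻¹ * g * t} := fun x y e1 e2 => by
    rw [Subgroup.mem_centralizer_singleton_iff]
    have : x = (wp ns s)⁻¹ * y * wp ns s := by rw [mul_assoc, ← e2]; group
    conv_lhs => rw [this, ← e1]
    group
  refine ⟨g, g.2, s, hs', fun x hx => ?_⟩
  have : G ≤ Subgroup.centralizer {(wp ns s)⁻¹ * g * t} := by
    refine hG.le.trans (gen_le_iff.2 ?_)
    simp only [List.forall_mem_cons]
    refine ⟨k' _ _ ?_ h5, k' _ _ ?_ h6, k' _ _ ?_ h7, by simp⟩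
    · rw [← k ⟨_, ma⟩, h1]; rfl
    · rw [← k ⟨_, mb⟩, h2]
    · rw [← k ⟨_, mc⟩, h3]
  exact Subgroup.mem_centralizer_singleton_iff.1 (this hx)

/-- The last step of the recognition. -/
theorem eq_of_swap {N w : ℕ} {ns : List Net} (c : Ctx N w ns) {n p q D K E : ℕ} (hp : p < n)
    (hq : q < n) (hn : n ≤ N) {hws kws kills sg : List (List ℕ)}
    {goods : List (List ℕ × List ℕ × ℕ)} {G' G0 : Subgroup (Equiv.Perm ℕ)}
    (hT : Tr n p (gen ns hws) G') (hs : G0 ≤ suppSub n) (h0 : IsStab N G0 (gen ns hws) p E)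
    (hK : Known ns G0 K) (h1 : IsStab N (gen ns hws) (gen ns kws) q D)
    (hN : ∀ t : Equiv.Perm ℕ, (∀ x, x ∈ gen ns kws ↔ t * x * t⁻¹ ∈ gen ns kws) →
      ∃ k ∈ gen ns kws, ∃ s ∈ sg, ∀ x ∈ gen ns kws,
        x * ((wp ns s)⁻¹ * k * t) = (wp ns s)⁻¹ * k * t * x)
    {Ms : List ℕ} {es : List CE} (hC : and' (allL Ms (invAll ns kws))
      (and' (centB N w ns n kws Ms es 0) (allL sg fun s => suppW N w ns s n)) = true)
    (hD : invAll ns hws D = true)
    (hF : ∀ s ∈ sg, ∀ u ∈ cands es,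
      finB N w ns n p q D K Ms hws kills goods (appendR s u) = true)
    {t : Equiv.Perm ℕ} (ht : t ∈ G') (t1 : t p = q) (t2 : t q = p) : G' = G0 := by
  simp only [and'_eq_true] at hC
  have mem : ∀ x, x ∈ gen ns kws ↔ x ∈ G' ∧ x p = p ∧ x q = q := fun x =>
    ⟨fun hx => ⟨hT.le (h1.le hx), h0.fix _ (h1.le hx), h1.fix _ hx⟩,
      fun hx => h1.stab _ ((hT.stab x).2 ⟨hx.1, hx.2.1⟩) hx.2.2⟩
  have t3 : t⁻¹ p = q := by rw [Equiv.Perm.inv_eq_iff_eq, t2]
  have t4 : t⁻¹ q = p := by rw [Equiv.Perm.inv_eq_iff_eq, t1]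
  obtain ⟨k, hk, s, hs', h⟩ := hN t fun x => by
    rw [mem, mem]
    simp only [Equiv.Perm.mul_apply, t3, t4]
    constructor
    · rintro ⟨a1, a2, a3⟩
      exact ⟨mul_mem (mul_mem ht a1) (inv_mem ht), by rw [a3, t2], by rw [a2, t1]⟩
    · rintro ⟨a1, a2, a3⟩
      refine ⟨by simpa [mul_assoc] using mul_mem (mul_mem (inv_mem ht) a1) ht,
        t.injective (by rw [a3, t1]), t.injective (by rw [a2, t2])⟩
  obtain ⟨k1, k2, k3⟩ := (mem k).1 hk
  obtain ⟨u, hu, e⟩ := cent_of_centB c hn hC.1 hC.2.1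
    (((supp_of_suppW c ((allL_iff _ _).1 hC.2.2 s hs')).inv.mul (hT.supp k1)).mul (hT.supp ht))
    h (by simp)
  have e' : wp ns (appendR s u) = k * t := by rw [appendR_eq, wp_append, ← e]; group
  exact eq_of_finB c hp hq hn hT hs h0 hK h1 hC.1 hD (e' ▸ mul_mem k1 ht)
    (by rw [e', Equiv.Perm.mul_apply, t1, k3]) (by rw [e', Equiv.Perm.mul_apply, t2, k2])
    (hF s hs' u hu)

/-- The common neighbours of `a` and a point of the second suborbit. -/
theorem exists_mu {Ω : Type*} [Fintype Ω] {G : Subgroup (Equiv.Perm Ω)} [IsPretransitive G Ω]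
    {a b c : Ω} {H0 : Subgroup (Equiv.Perm ℕ)} (e : stabilizer G a ≃* H0) {N x D k m r : ℕ}
    {S : Subgroup (Equiv.Perm ℕ)} (h1 : IsStab N H0 S x D) (hk : (mset N D).card = k)
    (hb : (orbit (stabilizer G a) b).ncard = k) (hc : (orbit (stabilizer G a) c).ncard = m)
    (hk1 : 1 < k) (hm1 : 1 < m) (hkm : k ≠ m) (hΩ : Fintype.card Ω = 1 + k + m)
    (hx : ∀ g ∈ img e b, g x = x) (hr : r.Prime) (hr1 : r ∣ k + 1) (hr2 : ¬ r ∣ 1 + k + m) :
    ∃ l mu : ℕ, k * (k - l - 1) = m * mu ∧ l < k ∧ 0 < mu ∧ ∃ T : Set ℕ, T ⊆ mset N D ∧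
      T.ncard = mu ∧ ∀ g ∈ img e c, ∀ i ∈ T, g i ∈ T := by
  classical
  obtain ⟨f, e1, hinj, him⟩ := exists_orbMap e h1 hx (hb.trans hk.symm)
  obtain ⟨hadj, l, mu, hs⟩ := Spor.orbitalGraph_isSRG hb hc hk1 hm1 hkm hΩ
  have p1 := hs.param_eq _ (by omega : 0 < 1 + k + m)
  rw [show 1 + k + m - k - 1 = m by omega] at p1
  have p2 := Spor.srg_l_lt hs ((hadj b).2 (mem_orbit_self b))
  have hac := not_mem_orbit_of_lt (G := G) (a := a) (b := c) (by omega)
  have hbc := disjoint_orbit_of_ne (H := stabilizer G a) (b := b) (c := c) (by omega)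
  refine ⟨l, mu, p1, p2, Nat.pos_of_ne_zero fun h0 => ?_,
    f '' {y | (Spor.orbitalGraph G a b).Adj a y ∧ (Spor.orbitalGraph G a b).Adj c y}, ?_, ?_, ?_⟩
  · subst h0
    have : l + 1 = k := by
      rw [mul_zero, mul_eq_zero] at p1
      omega
    exact hr2 (Spor.srg_prime_dvd hs hr hr1 (by rw [show l + 2 = k + 1 by omega]; exact hr1)
      (dvd_zero r))
  · rw [← him]
    exact Set.image_mono fun y hy => (hadj y).1 hy.1
  · rw [Set.ncard_image_of_injOn (hinj.mono fun y hy => (hadj y).1 hy.1),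
      ← Spor.srg_card_common_not_adj hs (v := a) (w := c) (fun h => hac (h ▸ mem_orbit_self _))
        (fun h => Set.disjoint_left.1 hbc ((hadj c).1 h) (mem_orbit_self c)),
      ← Set.ncard_coe_finset]
    congr 1
    ext y
    simp
  · rintro _ ⟨h, h2, rfl⟩ _ ⟨y, hy, rfl⟩
    have h3 : (h : G) • c = c := h2
    have h4 : (h : G) • a = a := h.2
    refine ⟨h • y, ⟨?_, ?_⟩, ?_⟩
    · have := (Spor.orbitalGraph_adj_smul (h : G)).2 hy.1
      rwa [h4] at this
    · have := (Spor.orbitalGraph_adj_smul (h : G)).2 hy.2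
      rwa [h3] at this
    · obtain ⟨g, rfl⟩ := (hadj y).1 hy.1
      dsimp only
      rw [← mul_smul, e1, e1, map_mul]
      rfl

end Cfsg.Agent.R3
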