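import Cfsg.Agent.R3.Sub

/-!
Double coset decompositions from forests of masks, checked in pieces with a perfect hash; orbit
bounds for subgroups of known order.
-/

set_option autoImplicit false

namespace Cfsg.Agent.R3

open Cfsg.Agent.Comp MulAction
open scoped Pointwise

/-- A two-level hash. -/
noncomputable def chd (B W T Q m x : ℕ) : ℕ :=
  Nat.mod (Nat.mod x (Nat.add Q (lab W (ones W) T (Nat.mod x B)))) m

/-- The hash values of the masks in a forest. -/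
noncomputable def forestH (N : ℕ) (h : ℕ → ℕ) (ns : List Net) (a0 a1 a2 : List ℕ) (x : ℕ)
    (reps : List (List ℕ × T3)) : ℕ :=
  orL reps fun r => T3.orM (appW (rep N 2) ns a0) (appW (rep N 2) ns a1) (appW (rep N 2) ns a2)
    (fun y => h (hsh N 0 (Nat.shiftRight y N))) r.2 (appW (rep N 2) ns (invW r.1) (salt N x))

/-- Every bit of `X` is the hash value of an image of the mask `x` under `A u`, `u` with `Q`. -/
def Hit (N : ℕ) (h : ℕ → ℕ) (A : Subgroup (Equiv.Perm ℕ)) (x : ℕ) (Q : Equiv.Perm ℕ → Prop)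
    (X : ℕ) : Prop :=
  ∀ j, X.testBit j = true →
    ∃ u, Q u ∧ ∃ a ∈ A, ∃ y, a • u • mset N x = mset N y ∧ h (hsh N 0 y) = j

theorem hit_forest {N : ℕ} {ns : List Net} (hns : okNs N ns = true) {h : ℕ → ℕ}
    {A : Subgroup (Equiv.Perm ℕ)} {x : ℕ} {Q : Equiv.Perm ℕ → Prop} {a0 a1 a2 : List ℕ}
    (h0 : wp ns a0 ∈ A) (h1 : wp ns a1 ∈ A) (h2 : wp ns a2 ∈ A) {reps : List (List ℕ × T3)}
    (hQ : ∀ r ∈ reps, Q (wp ns r.1)) {X : ℕ}
    (e : Nat.beq (forestH N h ns a0 a1 a2 x reps) X = true) : Hit N h A x Q X := by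
  intro j hj
  rw [← (beq_iff _ _).1 e] at hj
  obtain ⟨r, hr, h3⟩ := (testBit_orL _ _ _).1 hj
  obtain ⟨y, hy, rfl⟩ := (T3.testBit_orM _ _ _ _).1 h3
  have := T3.mem_orbit (G := Equiv.Perm ℕ) (fun y => mset N (y >>> N)) (fun _ => True) A
    (inv_mem h0) (inv_mem h1) (inv_mem h2) (fun z _ => ⟨trivial, mset_appW_two hns a0 z⟩)
    (fun z _ => ⟨trivial, mset_appW_two hns a1 z⟩)
    (fun z _ => ⟨trivial, mset_appW_two hns a2 z⟩) r.2
    (x := appW (rep N 2) ns (invW r.1) (salt N x)) trivial y hy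
  obtain ⟨a, ha⟩ := this.2
  refine ⟨_, hQ r hr, a, a.2, y >>> N, ?_, rfl⟩
  dsimp only at ha
  rw [← ha, mset_appW_two hns, wp_invW, inv_inv, salt_shiftRight]
  rfl

theorem Hit.lor {N : ℕ} {h : ℕ → ℕ} {A : Subgroup (Equiv.Perm ℕ)} {x : ℕ}
    {Q : Equiv.Perm ℕ → Prop} {X Y : ℕ} (h1 : Hit N h A x Q X) (h2 : Hit N h A x Q Y) :
    Hit N h A x Q (Nat.lor X Y) := fun j hj =>
  ((testBit_lor' _ _ _).1 hj).elim (h1 j) (h2 j)

theorem dc_of_hit {N : ℕ} {G A B : Subgroup (Equiv.Perm ℕ)} [Finite G] (hA : A ≤ G) (hB : B ≤ G)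
    {x : ℕ} (hBx : ∀ b ∈ B, b • mset N x = mset N x) {h : ℕ → ℕ} {Q : Equiv.Perm ℕ → Prop}
    (hQ : ∀ u, Q u → u ∈ G) {X : ℕ} (hX : Hit N h A x Q X) {n t : ℕ}
    (hc : Nat.card G ≤ n * Nat.card B) (hn : Nat.ble n (pc t X) = true) :
    ∀ g ∈ G, ∃ u, Q u ∧ ∃ a ∈ A, ∃ b ∈ B, g = a * u * b := by
  classical
  set Y := {s | ∃ g ∈ G, g • mset N x = s} with hY
  set U := {s | ∃ u, Q u ∧ ∃ a ∈ A, a • u • mset N x = s} with hU
  have hUY : U ⊆ Y := by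
    rintro _ ⟨u, hu, a, ha, rfl⟩
    exact ⟨a * u, mul_mem (hA ha) (hQ u hu), mul_smul _ _ _⟩
  have hYf : Y.Finite := by
    refine (Set.finite_range fun g : G => (g : Equiv.Perm ℕ) • mset N x).subset ?_
    rintro _ ⟨g, hg, rfl⟩
    exact ⟨⟨g, hg⟩, rfl⟩
  have hn' : n ≤ U.ncard := by
    rw [ble_iff, pc_eq] at hn
    refine hn.trans ?_
    let κ : Finset ℕ → ℕ := fun s => if h' : ∃ y, mset N y = s then h (hsh N 0 h'.choose) else 0
    have hκ : ∀ y, κ (mset N y) = h (hsh N 0 y) := fun y => by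
      have h3 : ∃ z, mset N z = mset N y := ⟨y, rfl⟩
      simp only [κ, dif_pos h3]
      rw [hsh_eq h3.choose_spec]
    rw [← Set.ncard_coe_finset]
    refine le_trans (Set.ncard_le_ncard ?_ ((hYf.subset hUY).image κ))
      (Set.ncard_image_le (hYf.subset hUY))
    intro j hj
    obtain ⟨u, hu, a, ha, y, e, rfl⟩ := hX j (mem_mset.1 hj).2
    exact ⟨mset N y, ⟨u, hu, a, ha, e⟩, hκ y⟩
  have e := card_eq_orbit_mul_stab G (mset N x)
  have hBS : B ≤ G ⊓ stabilizer (Equiv.Perm ℕ) (mset N x) := fun b hb => ⟨hB hb, hBx b hb⟩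
  have : Finite ↥(G ⊓ stabilizer (Equiv.Perm ℕ) (mset N x)) :=
    Finite.of_injective _ (Subgroup.inclusion_injective inf_le_left)
  have : Finite B := Finite.of_injective _ (Subgroup.inclusion_injective hB)
  have l1 := Subgroup.card_le_of_le hBS
  have l2 := Set.ncard_le_ncard hUY hYf
  have p1 : 0 < Nat.card B := Nat.card_pos
  have p2 : 0 < Nat.card G := Nat.card_pos
  rw [← hY] at e
  have l3 : Y.ncard ≤ n := by
    by_contra h3
    have := Nat.mul_le_mul (not_le.1 h3) l1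
    nlinarith
  have l4 : Y.ncard = n := by omega
  have l5 : Nat.card ↥(G ⊓ stabilizer (Equiv.Perm ℕ) (mset N x)) ≤ Nat.card B := by
    rw [l4] at e
    have : 0 < n := Nat.pos_of_ne_zero fun h0 => by rw [h0, zero_mul] at e; omega
    exact Nat.le_of_mul_le_mul_left (e ▸ hc) this
  have hS := Subgroup.eq_of_le_of_card_ge hBS l5
  have hUY' := Set.eq_of_subset_of_ncard_le hUY (by omega) hYf
  intro g hg
  obtain ⟨u, hu, a, ha, e'⟩ : g • mset N x ∈ U := hUY' ▸ ⟨g, hg, rfl⟩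
  have h3 : (a * u)⁻¹ * g ∈ G := mul_mem (inv_mem (mul_mem (hA ha) (hQ u hu))) hg
  refine ⟨u, hu, a, ha, (a * u)⁻¹ * g, hS.symm.le ⟨h3, ?_⟩, by group⟩
  change ((a * u)⁻¹ * g) • mset N x = _
  rw [mul_smul, ← e', ← mul_smul a, inv_smul_smul]

/-- The orbit of a point under a subgroup containing the words `ws`. -/
theorem exists_orbit_dvd {N w : ℕ} {ns : List Net} (c : Ctx N w ns) {D b y r : ℕ}
    {H S K : Subgroup (Equiv.Perm ℕ)} (h : IsStab N H S b D) (hK : K ≤ H) {ws : List (List ℕ)}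
    (hA : ∀ u ∈ ws, wp ns u ∈ K) (hy : y ∈ mset N D) :
    ∃ k, pcN N w (orb ns ws r y) ≤ k ∧ k ≤ (mset N D).card ∧ k ∣ Nat.card K := by
  refine ⟨{i | ∃ g ∈ K, g • y = i}.ncard, ?_, ?_, Dvd.intro _ (card_eq_orbit_mul_stab K y).symm⟩
  all_goals
    have h1 : {i | ∃ g ∈ K, g • y = i} ⊆ mset N D := by
      rintro _ ⟨k, hk, rfl⟩
      obtain ⟨g, hg, rfl⟩ := (h.orb y).2 hy
      exact (h.orb _).1 ⟨k * g, mul_mem (hK hk) hg, rfl⟩
  · rw [pcN_eq c.le, ← Set.ncard_coe_finset]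
    exact Set.ncard_le_ncard (fun i hi => exists_of_orb c.ok hA (mem_mset.1 hi).1 (mem_mset.1 hi).2)
      ((Finset.finite_toSet _).subset h1)
  · rw [← Set.ncard_coe_finset]
    exact Set.ncard_le_ncard h1 (Finset.finite_toSet _)

theorem exists_orbit_union' {N w : ℕ} {ns : List Net} (c : Ctx N w ns) {D b y : ℕ}
    {H S K : Subgroup (Equiv.Perm ℕ)} (h : IsStab N H S b D) (hK : K ≤ H) {aws : List (List ℕ)}
    (hA : ∀ u ∈ aws, wp ns u ∈ K) {os : List (ℕ × ℕ)} (hy : y ∈ mset N D)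
    (hc : subB D (orL (orbs ns aws os) id) = true) :
    ∃ M ∈ unions (orbs ns aws os), M.testBit y = true ∧ pcN N w M ∣ Nat.card K ∧
      ∀ i, i ∈ mset N M ↔ ∃ g ∈ K, g y = i := by
  obtain ⟨M, hM, e⟩ := exists_union c.ok (A := K) hA hc (S := {i | ∃ g ∈ K, g • y = i})
    (by rintro g hg _ ⟨k, hk, rfl⟩; exact ⟨g * k, mul_mem hg hk, rfl⟩)
    (by
      rintro _ ⟨k, hk, rfl⟩
      obtain ⟨g, hg, rfl⟩ := (h.orb y).2 hy
      exact (h.orb _).1 ⟨k * g, mul_mem (hK hk) hg, rfl⟩)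
  have e' : ∀ i, i ∈ mset N M ↔ ∃ g ∈ K, g y = i := fun i => (Set.ext_iff.1 e i).symm
  refine ⟨M, hM, (mem_mset.1 ((e' y).2 ⟨1, one_mem _, rfl⟩)).2, ?_, e'⟩
  have h1 := card_eq_orbit_mul_stab K y
  rw [e, Set.ncard_coe_finset, ← pcN_eq c.le] at h1
  exact Dvd.intro _ h1.symm

/-- A subgroup containing `S` and a conjugate of `P`, moved along a double coset. -/
theorem exists_conj_dc₂ {Γ : Type*} [Group Γ] {S P A B K H : Subgroup Γ}
    (hA : ∀ n ∈ A, ∀ x ∈ S, n * x * n⁻¹ ∈ S) (hB : ∀ n ∈ B, ∀ x ∈ P, n * x * n⁻¹ ∈ P)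
    (hK : K ≤ H) (hS : S ≤ K) {a u b : Γ} (ha : a ∈ A) (hb : b ∈ B) (hH : a * u ∈ H)
    (hP : ∀ g ∈ P, a * u * b * g * (a * u * b)⁻¹ ∈ K) :
    ∃ K' ≤ H, Nat.card K' = Nat.card K ∧ P ≤ K' ∧ (∀ s ∈ S, u⁻¹ * s * u ∈ K') ∧
      ∀ g ∈ K, (a * u)⁻¹ * g * (a * u) ∈ K' := by
  obtain ⟨K', h1, h2⟩ := exists_conj K (a * u)
  refine ⟨K', fun x hx => ?_, h2, fun g hg => (h1 _).2 ?_, fun s hs => (h1 _).2 ?_,
    fun g hg => (h1 _).2 ?_⟩
  · simpa [mul_assoc] using mul_mem (mul_mem (inv_mem hH) (hK ((h1 x).1 hx))) hH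
  · simpa [mul_assoc] using hP _ (hB _ (inv_mem hb) g hg)
  · simpa [mul_assoc] using hS (hA a ha s hs)
  · simpa [mul_assoc] using hg

end Cfsg.Agent.R3
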