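import Cfsg.Agent.R3.Final

/-!
Small certificates on subgroups of permutation models: normalisers, closed lists of masks,
conjugate subgroups, orbit bounds.
-/

set_option autoImplicit false

namespace Cfsg.Agent.R3

open Cfsg.Agent.Comp MulAction
open scoped Pointwise

theorem exists_conj {Γ : Type*} [Group Γ] (L : Subgroup Γ) (n : Γ) :
    ∃ L' : Subgroup Γ, (∀ x, x ∈ L' ↔ n * x * n⁻¹ ∈ L) ∧ Nat.card L' = Nat.card L :=
  ⟨L.comap (MulAut.conj n).toMonoidHom, fun _ => Iff.rfl, by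
    rw [Subgroup.comap_equiv_eq_map_symm']
    exact (Nat.card_congr ((MulAut.conj n).symm.subgroupMap L).toEquiv).symm⟩

/-- The words `nws` normalise the group of the words `pws`. -/
noncomputable def normB (N w : ℕ) (ns : List Net) (nws pws vs : List (List ℕ)) : Bool :=
  allL nws fun u => allL pws fun x => anyL vs fun v =>
    eqW N w ns (appendR u x) (appendR (subW pws v) u)

theorem conj_mem_of_normB {N w : ℕ} {ns : List Net} (c : Ctx N w ns) {nws pws vs : List (List ℕ)}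
    (h : normB N w ns nws pws vs = true) :
    ∀ n ∈ gen ns nws, ∀ x ∈ gen ns pws, n * x * n⁻¹ ∈ gen ns pws := by
  have := finite_gen c.ok pws
  have : Finite (gen ns pws : Set (Equiv.Perm ℕ)) := this
  have k : gen ns nws ≤ Subgroup.normalizer (gen ns pws : Set (Equiv.Perm ℕ)) :=
    gen_le_iff.2 fun u hu => Subgroup.mem_normalizer_fintype fun x hx => by
      have : gen ns pws ≤ (gen ns pws).comap (MulAut.conj (wp ns u)).toMonoidHom :=
        gen_le_iff.2 fun y hy => by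
          obtain ⟨v, -, hv⟩ := (anyL_iff _ _).1 ((allL_iff _ _).1 ((allL_iff _ _).1 h u hu) y hy)
          have e := wp_eq_of_eqW c hv
          simp only [appendR_eq, wp_append] at e
          change wp ns u * wp ns y * (wp ns u)⁻¹ ∈ gen ns pws
          rw [e, mul_inv_cancel_right]
          exact subW_mem ns pws v
      exact this hx
  exact fun n hn x hx => (Subgroup.mem_normalizer_iff.1 (k hn) x).1 hx

/-- The image of a mask under a word. -/
noncomputable def imW (ns : List Net) (u : List ℕ) (x : ℕ) : ℕ := appW 1 ns (invW u) x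

theorem mset_imW {N : ℕ} {ns : List Net} (hns : okNs N ns = true) (u : List ℕ) (x : ℕ) :
    mset N (imW ns u x) = wp ns u • mset N x := by
  rw [imW, mset_appW hns, wp_invW, inv_inv]

/-- The mask is in the list. -/
noncomputable def memB (l : List ℕ) (x : ℕ) : Bool := force x fun y => anyL l (Nat.beq y)

theorem mem_of_memB {l : List ℕ} {x : ℕ} (h : memB l x = true) : x ∈ l := by
  rw [memB, force_eq, anyL_iff] at h
  obtain ⟨y, hy, e⟩ := h
  exact (beq_iff _ _).1 e ▸ hy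

/-- The set of the mask differs from the sets of the masks of the list. -/
noncomputable def outB (N : ℕ) (l : List ℕ) (x : ℕ) : Bool :=
  force (hsh N 0 x) fun y => allL l fun z => not' (Nat.beq y (hsh N 0 z))

theorem ne_of_outB {N : ℕ} {l : List ℕ} {x : ℕ} (h : outB N l x = true) :
    ∀ z ∈ l, mset N x ≠ mset N z := fun z hz e => by
  rw [outB, force_eq, allL_iff] at h
  exact (not'_eq_true _).1 (h z hz) ((beq_iff _ _).2 (hsh_eq e))

/-- The list of masks is closed under the words. -/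
noncomputable def closedB (ns : List Net) (ws : List (List ℕ)) (l : List ℕ) : Bool :=
  allL ws fun u => allL l fun x => memB l (imW ns u x)

theorem of_closedB {N : ℕ} {ns : List Net} (hns : okNs N ns = true) {ws : List (List ℕ)}
    {l : List ℕ} (h : closedB ns ws l = true) :
    ∀ g ∈ gen ns ws, ∀ x ∈ l, ∃ y ∈ l, g • mset N x = mset N y := fun g hg => by
  have := mul_mem_of_closure (C := {g : Equiv.Perm ℕ | ∀ x ∈ l, ∃ y ∈ l, g • mset N x = mset N y})
    (by rintro _ ⟨u, -, rfl⟩; exact (supp_wp hns u).isOfFinOrder)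
    (by
      rintro _ ⟨u, hu, rfl⟩ k hk x hx
      obtain ⟨y, hy, e⟩ := hk x hx
      exact ⟨_, mem_of_memB ((allL_iff _ _).1 ((allL_iff _ _).1 h u hu) y hy), by
        rw [mul_smul, e, mset_imW hns]⟩) hg 1 (fun x hx => ⟨x, hx, one_smul _ _⟩)
  simpa using this

theorem ncard_le_length {N : ℕ} {X : Set (Finset ℕ)} {l : List ℕ}
    (h : ∀ s ∈ X, ∃ y ∈ l, s = mset N y) : X.ncard ≤ l.length := by
  classical
  calc X.ncard ≤ ((l.map (mset N)).toFinset : Set (Finset ℕ)).ncard :=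
        Set.ncard_le_ncard (fun s hs => by
          obtain ⟨y, hy, rfl⟩ := h s hs
          simpa using ⟨y, hy, rfl⟩) (Finset.finite_toSet _)
    _ ≤ l.length := by
        rw [Set.ncard_coe_finset]
        simpa using List.toFinset_card_le (l.map (mset N))

/-- Orbit-stabiliser bound inside an invariant mask. -/
theorem card_le_mul_stab {N D b : ℕ} {H S K : Subgroup (Equiv.Perm ℕ)} (h : IsStab N H S b D)
    (hK : K ≤ H) : Nat.card K ≤ (mset N D).card * Nat.card ↥(K ⊓ S) := by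
  have e : K ⊓ stabilizer (Equiv.Perm ℕ) b = K ⊓ S := le_antisymm
    (fun g hg => ⟨hg.1, h.stab g (hK hg.1) hg.2⟩) fun g hg => ⟨hg.1, h.fix g hg.2⟩
  rw [card_eq_orbit_mul_stab K b, e, ← Set.ncard_coe_finset]
  refine Nat.mul_le_mul_right _ (Set.ncard_le_ncard ?_ (Finset.finite_toSet _))
  rintro _ ⟨g, hg, rfl⟩
  exact (h.orb _).1 ⟨g, hK hg, rfl⟩

/-- The orbit of a point fixed by `A ≤ K` is a union of orbits of `A` whose length divides the
index. -/
theorem exists_orbit_union {N w : ℕ} {ns : List Net} (c : Ctx N w ns) {D b : ℕ}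
    {H S K : Subgroup (Equiv.Perm ℕ)} (h : IsStab N H S b D) (hK : K ≤ H) {aws : List (List ℕ)}
    (hA : gen ns aws ≤ K) {os : List (ℕ × ℕ)} {a m : ℕ} (ha : Nat.card (gen ns aws) = a)
    (ha0 : 0 < a) (hm : Nat.card K = a * m)
    (hc : and' (and' (Nat.blt b N) (fixAll ns aws b))
      (subB D (orL (orbs ns aws os) id)) = true) :
    ∃ M ∈ unions (orbs ns aws os), M.testBit b = true ∧ pcN N w M ∣ m ∧
      ∀ i, i ∈ mset N M ↔ ∃ g ∈ K, g b = i := by
  simp only [and'_eq_true, blt_iff] at hc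
  obtain ⟨M, hM, e⟩ := exists_union c.ok (A := K) (fun u hu => hA (wp_mem_gen ns hu)) hc.2
    (S := {i | ∃ g ∈ K, g • b = i})
    (by rintro g hg _ ⟨k, hk, rfl⟩; exact ⟨g * k, mul_mem hg hk, rfl⟩)
    (by rintro _ ⟨k, hk, rfl⟩; exact (h.orb _).1 ⟨k, hK hk, rfl⟩)
  have e' : ∀ i, i ∈ mset N M ↔ ∃ g ∈ K, g b = i := fun i => (Set.ext_iff.1 e i).symm
  refine ⟨M, hM, (mem_mset.1 ((e' b).2 ⟨1, one_mem _, rfl⟩)).2, ?_, e'⟩
  have h1 := card_eq_orbit_mul_stab K b
  rw [e, Set.ncard_coe_finset, ← pcN_eq c.le, hm] at h1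
  obtain ⟨d, hd⟩ := Subgroup.card_dvd_of_le (show gen ns aws ≤ K ⊓ stabilizer (Equiv.Perm ℕ) b from
    fun g hg => ⟨hA hg, fix_of_fixAll c.ok hc.1.1 hc.1.2 g hg⟩)
  rw [hd, ha] at h1
  exact ⟨d, Nat.eq_of_mul_eq_mul_left ha0 (by rw [h1]; ring)⟩

theorem smul_mset_of_orbit {N M b : ℕ} {K : Subgroup (Equiv.Perm ℕ)}
    (h : ∀ i, i ∈ mset N M ↔ ∃ g ∈ K, g b = i) {g : Equiv.Perm ℕ} (hg : g ∈ K) :
    g • mset N M = mset N M := by
  ext i
  rw [← inv_inv g, Finset.mem_inv_smul_finset_iff, h, h]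
  constructor
  · rintro ⟨k, hk, e⟩
    exact ⟨g * k, mul_mem hg hk, by simp [e]⟩
  · rintro ⟨k, hk, rfl⟩
    exact ⟨g⁻¹ * k, mul_mem (inv_mem hg) hk, rfl⟩

theorem fix_of_orbit {N b : ℕ} {K : Subgroup (Equiv.Perm ℕ)}
    (h : ∀ i, i ∈ mset N (Nat.shiftLeft 1 b) ↔ ∃ g ∈ K, g b = i) : ∀ g ∈ K, g b = b :=
  fun g hg => ((testBit_one_shl _ _).1 (mem_mset.1 ((h _).2 ⟨g, hg, rfl⟩)).2).symm

theorem exists_le_img {H Ω : Type*} [Group H] [MulAction H Ω] {H0 A : Subgroup (Equiv.Perm ℕ)}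
    [Finite H0] (e : H ≃* H0) (ω : Ω) {p k : ℕ} (hp : p.Prime) (hA : A ≤ H0)
    (h1 : Nat.card A = p ^ k) (h2 : p ^ k ∣ Nat.card (img e ω))
    (h3 : ¬ p ^ (k + 1) ∣ Nat.card H0) : ∃ ω' ∈ orbit H ω, A ≤ img e ω' := by
  obtain ⟨x, hx, h⟩ := exists_syl_conj hp hA (img_le e ω) h1 h2 h3
  obtain ⟨ω', hω, h'⟩ := exists_conj_img e ω hx
  exact ⟨ω', hω, fun g hg => (h' g).2 (h g hg)⟩

theorem card_img_eq {H Ω : Type*} [Group H] [MulAction H Ω] {H0 : Subgroup (Equiv.Perm ℕ)}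
    (e : H ≃* H0) {ω : Ω} {k m : ℕ} (hk : (orbit H ω).ncard = k) (h0 : 0 < k)
    (h : Nat.card H0 = k * m) : Nat.card (img e ω) = m := by
  have := card_img e ω
  rw [hk, h] at this
  exact Nat.eq_of_mul_eq_mul_left h0 this

theorem ncard_of_mem_orbit {H Ω : Type*} [Group H] [MulAction H Ω] {ω ω' : Ω} {k : ℕ}
    (h : ω' ∈ orbit H ω) (hk : (orbit H ω).ncard = k) : (orbit H ω').ncard = k := by
  rw [orbit_eq_iff.2 h, hk]

/-- The words `pws` and their conjugates by `u`. -/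
noncomputable def cjW (pws : List (List ℕ)) (u : List ℕ) : List (List ℕ) :=
  appendR pws (mapR (fun x => appendR u (appendR x (invW u))) pws)

theorem exists_conj_dc {ns : List Net} {pws : List (List ℕ)} {M L J : Subgroup (Equiv.Perm ℕ)}
    (hM : ∀ n ∈ M, ∀ x ∈ gen ns pws, n * x * n⁻¹ ∈ gen ns pws) (hMJ : M ≤ J) (hL : L ≤ J)
    (hP : gen ns pws ≤ L) {a b : Equiv.Perm ℕ} (ha : a ∈ M) (hb : b ∈ M) {u : List ℕ}
    (hg : a * wp ns u * b ∈ L) :
    ∃ L' ≤ J, Nat.card L' = Nat.card L ∧ gen ns (cjW pws u) ≤ L' := by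
  obtain ⟨L', h1, h2⟩ := exists_conj L a
  refine ⟨L', fun x hx => ?_, h2, gen_le_iff.2 fun v hv => (h1 _).2 ?_⟩
  · simpa [mul_assoc] using mul_mem (mul_mem (inv_mem (hMJ ha)) (hL ((h1 x).1 hx))) (hMJ ha)
  · rw [cjW, appendR_eq, mapR_eq, List.mem_append, List.mem_map] at hv
    rcases hv with hv | ⟨x, hx, rfl⟩
    · exact hP (hM a ha _ (wp_mem_gen ns hv))
    · have := mul_mem (mul_mem hg (hP (hM _ (inv_mem hb) _ (wp_mem_gen ns hx)))) (inv_mem hg)
      simpa [appendR_eq, wp_invW, mul_assoc] using this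

theorem gen_le_cjW (ns : List Net) (pws : List (List ℕ)) (u : List ℕ) :
    gen ns pws ≤ gen ns (cjW pws u) := gen_le_iff.2 fun v hv =>
  wp_mem_gen ns (by rw [cjW, appendR_eq]; exact List.mem_append_left _ hv)

theorem exists_getL {α : Type} (d : α) {l : List α} {x : α} (h : x ∈ l) :
    ∃ j < l.length, getL d l j = x := by
  obtain ⟨j, hj, rfl⟩ := List.getElem_of_mem h
  exact ⟨j, hj, by rw [getL_eq, List.getD_eq_getElem _ _ hj]⟩

end Cfsg.Agent.R3
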