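import Cfsg.Agent.R3.SuzC

/-!
The subgroups of index 416 and 1365 of the point stabiliser `G₂(4)` in the model of the Suzuki
group.
-/

set_option autoImplicit false

namespace Cfsg.Agent.R3.Suz

open Cfsg.Agent.Comp MulAction
open scoped Pointwise

local notation "H" => gen ns (sTop A_S1)
local notation "J" => gen ns (sTop A_S2)
local notation "P" => gen ns P_ss0
local notation "M" => gen ns nws

theorem st0 : IsStab 2048 (gen ns [[0], [2], [4], [6], [8], [10], [12]]) H 0 (A_d0.D ns) :=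
  A_ex.2.1 ▸ A_ex.1.stab

theorem st1 : IsStab 2048 H J 1781 (A_d1.D ns) := A_ex.1.tail.stab

theorem cards : (mset 2048 (A_d1.D ns)).card = 416 ∧ (mset 2048 D2).card = 1365 := by
  rw [← pcN_eq ctx.le, ← pcN_eq ctx.le]
  decide +kernel

instance finH : Finite H := Nat.finite_of_card_ne_zero (by rw [hH]; norm_num)
instance finJ : Finite J := Nat.finite_of_card_ne_zero (by rw [hJ]; norm_num)

theorem M_le : M ≤ J := KJ.gen_le ((and'_eq_true _ _).1 N_in).1
theorem P_le : P ≤ J := KJ.gen_le ((and'_eq_true _ _).1 ((and'_eq_true _ _).1 N_in).2).1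

theorem M_fix : ∀ g ∈ M, g • mset 2048 F0 = mset 2048 F0 := fun _ hg =>
  smul_mset_of_maskStab (gen_le_supp ctx.ok _ hg)
    (gen_le_maskStab ctx.ok ((and'_eq_true _ _).1 N_norm).1 hg)

theorem M_norm : ∀ n ∈ M, ∀ x ∈ P, n * x * n⁻¹ ∈ P :=
  conj_mem_of_normB ctx ((and'_eq_true _ _).1 N_norm).2

theorem M_dc : (∀ g ∈ J, g • mset 2048 F0 = mset 2048 F0 → g ∈ M) ∧
    Nat.card J = 2016 * Nat.card M ∧
    ∀ g ∈ J, ∃ r ∈ N_reps, ∃ a ∈ M, ∃ b ∈ M, g = a * wp ns r.1 * b := by
  refine dc_of_forest ctx.ok M_le M_le M_fix (wp_mem_gen ns (by decide +kernel))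
    (wp_mem_gen ns (by decide +kernel)) (wp_mem_gen ns (by decide +kernel))
    (fun r hr => KJ.word ((allL_iff _ _).1
      ((and'_eq_true _ _).1 ((and'_eq_true _ _).1 N_in).2).2 r hr)) ?_ N_for
  have : 300 ≤ Nat.card M := ((ble_iff _ _).1 N_lb).trans (lbVal_le ctx _)
  rw [hJ]; omega

theorem M_card : Nat.card M = 300 := by
  have := M_dc.2.1
  rw [hJ] at this; omega

theorem dc_cases {L : Subgroup (Equiv.Perm ℕ)} (hL : L ≤ J) (hP : P ≤ L)
    (hc : Nat.card L < 604800) {g : Equiv.Perm ℕ} (hg : g ∈ L) :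
    g ∈ M ∨ ∃ a ∈ M, ∃ b ∈ M, g = a * wp ns gs * b := by
  obtain ⟨r, hr, a, ha, b, hb, rfl⟩ := M_dc.2.2 g (hL hg)
  obtain ⟨j, hj, rfl⟩ := exists_getL ([], .L) hr
  have e : N_reps.length = 18 := by decide +kernel
  rcases j with _ | _ | j
  · exact Or.inl (mul_mem (mul_mem ha (one_mem _)) hb)
  · exact Or.inr ⟨a, ha, b, hb, rfl⟩
  · obtain ⟨L', h1, h2, h3⟩ := exists_conj_dc M_norm M_le hL hP ha hb hg
    have h4 := ((allIn_of_allFrom N_slp2).trans ((allIn_of_allFrom N_slp7).trans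
      (allIn_of_allFrom N_slp12))) (j + 1 + 1) (by omega) (by omega)
    have h5 : J ≤ L' := JB_ex.2.2.symm.le.trans ((gen_le_of_slp ctx h4).trans h3)
    have : Finite L' := Finite.of_injective _ (Subgroup.inclusion_injective h1)
    have := Subgroup.card_le_of_le h5
    rw [hJ] at this
    omega

theorem card_special {L : Subgroup (Equiv.Perm ℕ)} (hL : L ≤ J) (hC : gen ns (curW gs) ≤ L)
    (hc : Nat.card L < 604800) : Nat.card L ≤ 900 := by
  have hP : P ≤ L := (gen_le_cjW ns P_ss0 gs).trans hC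
  have hcl := Y_cl
  simp only [and'_eq_true] at hcl
  have h16 : ∀ g ∈ L, ∃ y ∈ appendR l6 l10, g • mset 2048 F0 = mset 2048 y := fun g hg => by
    rcases dc_cases hL hP hc hg with h | ⟨a, ha, b, hb, rfl⟩
    · exact ⟨F0, by rw [appendR_eq]; exact List.mem_append_left _ (mem_of_memB hcl.2.1), M_fix g h⟩
    · rw [mul_smul, mul_smul, M_fix b hb, ← mset_imW ctx.ok]
      exact of_closedB ctx.ok hcl.1 a ha _ (mem_of_memB hcl.2.2)
  have h6 : ∀ g ∈ L, ∃ y ∈ l6, g • mset 2048 F0 = mset 2048 y := fun g hg => by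
    obtain ⟨y, hy, e⟩ := h16 g hg
    rw [appendR_eq, List.mem_append] at hy
    refine ⟨y, hy.resolve_right fun hy => ?_, e⟩
    obtain ⟨v, -, hv⟩ := (anyL_iff _ _).1 ((allL_iff _ _).1 Y_out y hy)
    obtain ⟨z, hz, e'⟩ := h16 _ (mul_mem (hC (subW_mem ns _ v)) hg)
    rw [mul_smul, e, ← mset_imW ctx.ok] at e'
    exact ne_of_outB hv z hz e'
  have h1 := card_eq_orbit_mul_stab L (mset 2048 F0)
  have h2 : {i | ∃ g ∈ L, g • mset 2048 F0 = i}.ncard ≤ l6.length :=
    ncard_le_length (by rintro _ ⟨g, hg, rfl⟩; exact h6 g hg)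
  have h3 : L ⊓ stabilizer (Equiv.Perm ℕ) (mset 2048 F0) ≤ M := fun g hg =>
    M_dc.1 g (hL hg.1) hg.2
  have : Finite M := Finite.of_injective _ (Subgroup.inclusion_injective M_le)
  have h4 := Subgroup.card_dvd_of_le h3
  have h5 : Nat.card ↥(L ⊓ stabilizer (Equiv.Perm ℕ) (mset 2048 F0)) ≠ 300 := fun h => by
    have e := Subgroup.eq_of_le_of_card_ge h3 (by rw [h, M_card])
    have h7 : wp ns [138] ∈ L := (e.symm.le (wp_mem_gen ns (by decide +kernel))).1
    obtain ⟨z, hz, e'⟩ := h6 _ (mul_mem h7 (hC (subW_mem ns _ [4])))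
    refine ne_of_outB Y_mv z hz ?_
    rw [mset_imW ctx.ok, appendR_eq, wp_append, e']
  rw [M_card] at h4
  obtain ⟨k, hk⟩ := h4
  have h7 : l6.length = 6 := rfl
  rw [h7] at h2
  have h8 : Nat.card ↥(L ⊓ stabilizer (Equiv.Perm ℕ) (mset 2048 F0)) ≤ 150 := by
    rcases k with _ | _ | k
    · omega
    · omega
    · nlinarith
  rw [h1]
  exact (Nat.mul_le_mul h2 h8).trans (by norm_num)

/-- A subgroup of index 416 containing the Sylow 5-subgroup fixes the point `1781`. -/
theorem fix416 {K : Subgroup (Equiv.Perm ℕ)} (hK : K ≤ H) (hP : P ≤ K)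
    (hc : Nat.card K = 604800) : ∀ g ∈ K, g 1781 = 1781 := by
  have : Finite K := Nat.finite_of_card_ne_zero (by omega)
  have h1 := card_le_mul_stab st1 hK
  rw [cards.1, hc] at h1
  have h2 : ¬ Nat.card ↥(K ⊓ J) < 604800 := fun h => by
    by_cases h3 : K ⊓ J ≤ M
    · have : Finite M := Finite.of_injective _ (Subgroup.inclusion_injective M_le)
      have := Subgroup.card_le_of_le h3
      rw [M_card] at this
      omega
    · obtain ⟨g, hg, h4⟩ := SetLike.not_le_iff_exists.1 h3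
      obtain ⟨a, ha, b, hb, rfl⟩ :=
        (dc_cases inf_le_right (le_inf hP P_le) h hg).resolve_left h4
      obtain ⟨L', h5, h6, h7⟩ :=
        exists_conj_dc M_norm M_le inf_le_right (le_inf hP P_le) ha hb hg
      have := card_special h5 h7 (by omega)
      omega
  have e := Subgroup.eq_of_le_of_card_ge (inf_le_left : K ⊓ J ≤ K) (by omega)
  exact fun g hg => st1.fix g (e.symm.le hg).2

theorem U_le : gen ns U_ss0 ≤ H := KH.gen_le U_in

/-- A subgroup of index 1365 containing the Sylow 2-subgroup fixes the point `1`, or all its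
orbits on the first suborbit are long. -/
theorem fix1365 {K : Subgroup (Equiv.Perm ℕ)} (hK : K ≤ H) (hU : gen ns U_ss0 ≤ K)
    (hc : Nat.card K = 184320) : (∀ g ∈ K, g 1 = 1) ∨ ∀ T : Set ℕ,
      T ⊆ mset 2048 (A_d1.D ns) → (∀ g ∈ K, ∀ i ∈ T, g i ∈ T) → T.ncard = 0 ∨ 160 ≤ T.ncard := by
  obtain ⟨X, h1, h2, h3, h4⟩ := exists_orbit_union ctx st2 hK hU U_card (by norm_num)
    (m := 45) hc U_fix
  have h5 := (allL_iff _ _).1 U_un X h1
  simp only [or'_eq_true, not'_eq_true, tb_eq, beq_iff] at h5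
  rcases h5 with h5 | h5 | rfl | rfl
  · exact absurd h2 h5
  · exact absurd (Nat.mod_eq_zero_of_dvd h3) h5
  · exact Or.inl (fix_of_orbit h4)
  · refine Or.inr fun T hT hT' => ?_
    have hin := R_in
    have hun := R_un
    simp only [and'_eq_true] at hin hun
    have hR : gen ns (lbTop R_B) ≤ H := gen_le_iff.2 (mem_of_wordsIn hin.1)
    have h6 : 184320 ≤ Nat.card (gen ns (lbTop R_B)) := ((ble_iff _ _).1 R_lb).trans (lbVal_le ctx _)
    have h7 := dc_of_forest ctx.ok (A := H) le_rfl hR (fun g hg => smul_mset_of_maskStab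
      (gen_le_supp ctx.ok _ hg) (gen_le_maskStab ctx.ok hin.2 hg)) (KH.word (by decide +kernel))
      (KH.word (by decide +kernel)) (KH.word (by decide +kernel))
      (fun r hr => KH.word ((allL_iff _ _).1
        (by decide +kernel : allL L_reps (fun r => inK 135107988888223616 r.1) = true) r hr))
      (by rw [hH]; omega) L_for
    have : Finite (gen ns (lbTop R_B)) := Finite.of_injective _ (Subgroup.inclusion_injective hR)
    have e := Subgroup.eq_of_le_of_card_ge
      (fun g hg => h7.1 g (hK hg) (smul_mset_of_orbit h4 hg) : K ≤ _) (by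
        have := h7.2.1
        rw [hH] at this
        omega)
    obtain ⟨Y, h8, rfl⟩ := exists_union ctx.ok (A := K) (fun u hu => e.symm.le (wp_mem_gen ns hu))
      hun.1 hT' hT
    have h9 := (allL_iff _ _).1 hun.2 Y h8
    rw [or'_eq_true, beq_iff, ble_iff, pcN_eq ctx.le] at h9
    rwa [Set.ncard_coe_finset]

end Cfsg.Agent.R3.Suz
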