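import Cfsg.Agent.R3.Basic
import Cfsg.Agent.Comp.TreeOrbit

/-!
Certificates used in the recognition of rank three groups: Sylow conjugation into a subgroup,
invariant sets as unions of orbits, double cosets from a forest of masks, the centraliser of a
permutation group in the symmetric group, and the last step.
-/

set_option autoImplicit false

namespace Cfsg.Agent.R3

open Cfsg.Agent.Comp MulAction
open scoped Pointwise

theorem exists_syl_conj {Γ : Type*} [Group Γ] {H A K : Subgroup Γ} [Finite H] {p k : ℕ}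
    (hp : p.Prime) (hA : A ≤ H) (hK : K ≤ H) (h1 : Nat.card A = p ^ k) (h2 : p ^ k ∣ Nat.card K)
    (h3 : ¬ p ^ (k + 1) ∣ Nat.card H) : ∃ x ∈ H, ∀ g ∈ A, x⁻¹ * g * x ∈ K := by
  have := Fact.mk hp
  have e2 := Nat.card_congr (Subgroup.subgroupOfEquivOfLe hK).toEquiv
  obtain ⟨T, hT⟩ := Sylow.exists_subgroup_card_pow_prime (G := K.subgroupOf H) p (n := k)
    (by rw [e2]; exact h2)
  have hT' : Nat.card (T.map (K.subgroupOf H).subtype) = p ^ k := by
    rw [← hT]
    exact (Nat.card_congr (T.equivMapOfInjective _ Subtype.val_injective).toEquiv).symm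
  have hA' : Nat.card (A.subgroupOf H) = p ^ k := by
    rw [← h1]; exact Nat.card_congr (Subgroup.subgroupOfEquivOfLe hA).toEquiv
  obtain ⟨Q1, hQ1⟩ := (IsPGroup.of_card hT').exists_le_sylow
  obtain ⟨Q2, hQ2⟩ := (IsPGroup.of_card hA').exists_le_sylow
  obtain ⟨m, hm⟩ := IsPGroup.iff_card.1 Q1.isPGroup'
  have hmk : m ≤ k := by
    by_contra hlt
    exact h3 ((pow_dvd_pow p (by omega)).trans (hm ▸ (Q1 : Subgroup H).card_subgroup_dvd_card))
  have hQ : T.map (K.subgroupOf H).subtype = Q1 :=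
    Subgroup.eq_of_le_of_card_ge hQ1 (by
      rw [hT', hm]; exact Nat.pow_le_pow_right hp.pos hmk)
  obtain ⟨g, hg⟩ := exists_smul_eq H Q1 Q2
  refine ⟨g, g.2, fun a ha => ?_⟩
  have h4 : (⟨a, hA ha⟩ : H) ∈ (g • Q1 : Sylow p H) := by
    rw [hg]; exact hQ2 (Subgroup.mem_subgroupOf.2 ha)
  have h5 : g⁻¹ * ⟨a, hA ha⟩ * g ∈ (Q1 : Subgroup H) := by
    have h6 : (⟨a, hA ha⟩ : H) ∈ ((g • Q1 : Sylow p H) : Subgroup H) := h4
    rw [Sylow.coe_subgroup_smul, Subgroup.mem_pointwise_smul_iff_inv_smul_mem] at h6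
    simpa using h6
  rw [← hQ] at h5
  obtain ⟨y, -, hy⟩ := h5
  have := Subgroup.mem_subgroupOf.1 y.2
  have e := congrArg Subtype.val hy
  simp only [Subgroup.subtype_apply, Subgroup.coe_mul, Subgroup.coe_inv] at e
  exact e ▸ this

/-- Inclusion of masks. -/
noncomputable def subB (x y : ℕ) : Bool := Nat.beq (Nat.land x y) x

theorem of_subB {x y i : ℕ} (h : subB x y = true) (hi : x.testBit i = true) :
    y.testBit i = true := by
  have e : x &&& y = x := (beq_iff _ _).1 h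
  rw [← e, Nat.testBit_and, Bool.and_eq_true] at hi
  exact hi.2

theorem testBit_lor' (x y i : ℕ) :
    (Nat.lor x y).testBit i = true ↔ x.testBit i = true ∨ y.testBit i = true := by
  change (x ||| y).testBit i = true ↔ _
  simp

theorem testBit_one_shl (p i : ℕ) : (Nat.shiftLeft 1 p).testBit i = true ↔ p = i := by
  have e : Nat.shiftLeft 1 p = 2 ^ p := Nat.one_shiftLeft p
  rw [e, Nat.testBit_two_pow, decide_eq_true_eq]

theorem mapsW_iff {N : ℕ} {ns : List Net} (h : okNs N ns = true) {u : List ℕ} {p q : ℕ}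
    (hp : p < N) : mapsW ns u p q = true ↔ wp ns u p = q := by
  rw [mapsW, tb_eq, testBit_appW_one h _ _ hp, testBit_one_shl, eq_comm]

theorem isStab_inf {N w : ℕ} {ns : List Net} (c : Ctx N w ns) {hws : List (List ℕ)} {y r E : ℕ}
    (h : and' (Nat.blt y N) (and' (Nat.beq (orb ns hws r y) E) (and' (invAll ns hws E)
      (tb E y))) = true) :
    IsStab N (gen ns hws) (gen ns hws ⊓ stabilizer (Equiv.Perm ℕ) y) y E := by
  simp only [and'_eq_true, blt_iff, beq_iff, tb_eq] at h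
  obtain ⟨h1, h2, h3, h4⟩ := h
  refine ⟨inf_le_left, fun g hg => hg.2, fun g hg e => ⟨hg, e⟩, fun i => ⟨?_, fun hi => ?_⟩⟩
  · rintro ⟨g, hg, rfl⟩
    exact mem_mset.2 ⟨Supp.lt (gen_le_supp c.ok _ hg) h1, by rw [inv_of_invAll c.ok h3 hg, h4]⟩
  · exact exists_of_orb c.ok (fun u hu => wp_mem_gen ns hu) (mem_mset.1 hi).1
      (h2 ▸ (mem_mset.1 hi).2)

/-- All unions of masks of a list. -/
noncomputable def unions (ms : List ℕ) : List ℕ :=
  List.rec (motive := fun _ => List ℕ) [0] (fun m _ ih => appendR ih (mapR (Nat.lor m) ih)) ms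

/-- The orbit masks of a list of pairs (point, rounds). -/
noncomputable def orbs (ns : List Net) (aws : List (List ℕ)) (os : List (ℕ × ℕ)) : List ℕ :=
  mapR (fun o => orb ns aws o.2 o.1) os

theorem exists_union {N : ℕ} {ns : List Net} (hns : okNs N ns = true)
    {A : Subgroup (Equiv.Perm ℕ)} {aws : List (List ℕ)} (hA : ∀ u ∈ aws, wp ns u ∈ A)
    {os : List (ℕ × ℕ)} {D : ℕ} (hD : subB D (orL (orbs ns aws os) id) = true) {S : Set ℕ}
    (hS : ∀ g ∈ A, ∀ i ∈ S, g i ∈ S) (hSD : S ⊆ mset N D) :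
    ∃ M ∈ unions (orbs ns aws os), S = mset N M := by
  have key : ∀ os : List (ℕ × ℕ), ∃ M ∈ unions (orbs ns aws os), ∀ i < N,
      (M.testBit i = true → i ∈ S) ∧
        (i ∈ S → (∃ o ∈ os, (orb ns aws o.2 o.1).testBit i = true) → M.testBit i = true) := by
    intro os
    induction os with
    | nil => exact ⟨0, List.mem_singleton_self 0, fun i _ => by simp⟩
    | cons o os ih =>
      obtain ⟨M, hM, h⟩ := ih
      have e : unions (orbs ns aws (o :: os)) = appendR (unions (orbs ns aws os))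
        (mapR (Nat.lor (orb ns aws o.2 o.1)) (unions (orbs ns aws os))) := rfl
      rw [e, appendR_eq, mapR_eq]
      by_cases ho : o.1 ∈ S
      · refine ⟨_, List.mem_append_right _ (List.mem_map_of_mem hM), fun i hi => ⟨?_, ?_⟩⟩
        · rw [testBit_lor']
          rintro (h1 | h1)
          · obtain ⟨g, hg, rfl⟩ := exists_of_orb hns hA hi h1
            exact hS g hg _ ho
          · exact (h i hi).1 h1
        · rintro h1 ⟨o', ho', h2⟩
          rw [testBit_lor']
          rcases List.mem_cons.1 ho' with rfl | ho'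
          · exact Or.inl h2
          · exact Or.inr ((h i hi).2 h1 ⟨o', ho', h2⟩)
      · refine ⟨M, List.mem_append_left _ hM, fun i hi => ⟨(h i hi).1, ?_⟩⟩
        rintro h1 ⟨o', ho', h2⟩
        rcases List.mem_cons.1 ho' with rfl | ho'
        · obtain ⟨g, hg, rfl⟩ := exists_of_orb hns hA hi h2
          exact absurd (by simpa using hS _ (inv_mem hg) _ h1) ho
        · exact (h i hi).2 h1 ⟨o', ho', h2⟩
  obtain ⟨M, hM, h⟩ := key os
  refine ⟨M, hM, Set.ext fun i => ⟨fun hi => ?_, fun hi => ?_⟩⟩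
  · have h1 := mem_mset.1 (hSD hi)
    obtain ⟨m, hm, h2⟩ := (testBit_orL _ _ _).1 (of_subB hD h1.2)
    rw [orbs, mapR_eq, List.mem_map] at hm
    obtain ⟨o, ho, rfl⟩ := hm
    exact mem_mset.2 ⟨h1.1, (h i h1.1).2 hi ⟨o, ho, h2⟩⟩
  · exact (h i (mem_mset.1 hi).1).1 (mem_mset.1 hi).2

theorem mset_appW {N : ℕ} {ns : List Net} (hns : okNs N ns = true) (u : List ℕ) (x : ℕ) :
    mset N (appW 1 ns u x) = (wp ns u)⁻¹ • mset N x := by
  ext i
  rw [Finset.mem_inv_smul_finset_iff, mem_mset, mem_mset, Equiv.Perm.smul_def]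
  constructor
  · rintro ⟨h1, h2⟩
    exact ⟨(supp_wp hns u).lt h1, by rwa [testBit_appW_one hns u x h1] at h2⟩
  · rintro ⟨h1, h2⟩
    have h3 : i < N := by simpa using (supp_wp hns u).inv.lt h1
    exact ⟨h3, by rwa [testBit_appW_one hns u x h3]⟩

theorem smul_mset_of_maskStab {N x : ℕ} {g : Equiv.Perm ℕ} (hg : Supp N g) (h : g ∈ maskStab x) :
    g • mset N x = mset N x := by
  ext i
  rw [← inv_inv g, Finset.mem_inv_smul_finset_iff, mem_mset, mem_mset, Equiv.Perm.smul_def,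
    (maskStab x).inv_mem h i]
  exact ⟨fun h1 => ⟨by simpa using hg.lt h1.1, h1.2⟩, fun h1 => ⟨hg.inv.lt h1.1, h1.2⟩⟩

/-- The hash of a mask. -/
noncomputable def hsh (N m x : ℕ) : ℕ := Nat.mod (Nat.land x (ones N)) m

theorem hsh_eq {N m x y : ℕ} (h : mset N x = mset N y) : hsh N m x = hsh N m y := by
  have : x &&& ones N = y &&& ones N := Nat.eq_of_testBit_eq fun i => by
    rw [Nat.testBit_and, Nat.testBit_and, testBit_ones]
    by_cases hi : i < N
    · have := Finset.ext_iff.1 h i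
      simp only [mem_mset, hi, true_and] at this
      rw [Bool.eq_iff_iff.2 this]
    · simp [hi]
  exact congrArg (fun z => Nat.mod z m) this

theorem mset_appW_two {N : ℕ} {ns : List Net} (hns : okNs N ns = true) (u : List ℕ) (x : ℕ) :
    mset N (appW (rep N 2) ns u x >>> N) = (wp ns u)⁻¹ • mset N (x >>> N) := by
  have key : ∀ i < N, (appW (rep N 2) ns u x >>> N).testBit i = (x >>> N).testBit (wp ns u i) :=
    fun i hi => by
      have := acts_appW 2 hns u x 1 i (by norm_num) hi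
      rwa [mul_one, ← Nat.testBit_shiftRight, ← Nat.testBit_shiftRight] at this
  ext i
  rw [Finset.mem_inv_smul_finset_iff, mem_mset, mem_mset, Equiv.Perm.smul_def]
  constructor
  · rintro ⟨h1, h2⟩
    exact ⟨(supp_wp hns u).lt h1, by rwa [key i h1] at h2⟩
  · rintro ⟨h1, h2⟩
    have h3 : i < N := by simpa using (supp_wp hns u).inv.lt h1
    exact ⟨h3, by rwa [key i h3]⟩

/-- A mask above a plane of noise. -/
noncomputable def salt (N x : ℕ) : ℕ := Nat.add (Nat.shiftLeft x N) (Nat.div (ones N) 4294967311)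

theorem salt_shiftRight (N x : ℕ) : salt N x >>> N = x := by
  have e : salt N x = x <<< N + ones N / 4294967311 := rfl
  have : ones N / 4294967311 < 2 ^ N := (Nat.div_le_self _ _).trans_lt (by
    rw [ones_eq]; exact Nat.sub_lt (by positivity) one_pos)
  rw [e, Nat.shiftRight_eq_div_pow, Nat.shiftLeft_eq, add_comm,
    Nat.add_mul_div_right _ _ (by positivity), Nat.div_eq_of_lt this, zero_add]

/-- The hash values of the masks in a forest. -/
noncomputable def forestM (N m : ℕ) (ns : List Net) (a0 a1 a2 : List ℕ) (x : ℕ)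
    (reps : List (List ℕ × T3)) : ℕ :=
  orL reps fun r => T3.orM (appW (rep N 2) ns a0) (appW (rep N 2) ns a1) (appW (rep N 2) ns a2)
    (fun y => hsh N m (Nat.shiftRight y N)) r.2 (appW (rep N 2) ns (invW r.1) (salt N x))

theorem dc_of_forest {N : ℕ} {ns : List Net} (hns : okNs N ns = true)
    {G A B : Subgroup (Equiv.Perm ℕ)} [Finite G] (hA : A ≤ G) (hB : B ≤ G) {x : ℕ}
    (hBx : ∀ b ∈ B, b • mset N x = mset N x) {a0 a1 a2 : List ℕ} (h0 : wp ns a0 ∈ A)
    (h1 : wp ns a1 ∈ A) (h2 : wp ns a2 ∈ A) {reps : List (List ℕ × T3)}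
    (hr : ∀ r ∈ reps, wp ns r.1 ∈ G) {n m t : ℕ} (hc : Nat.card G ≤ n * Nat.card B)
    (h : Nat.ble n (pc t (forestM N m ns a0 a1 a2 x reps)) = true) :
    (∀ g ∈ G, g • mset N x = mset N x → g ∈ B) ∧ Nat.card G = n * Nat.card B ∧
      ∀ g ∈ G, ∃ r ∈ reps, ∃ a ∈ A, ∃ b ∈ B, g = a * wp ns r.1 * b := by
  classical
  set X := {s | ∃ g ∈ G, g • mset N x = s} with hX
  set U := {s | ∃ r ∈ reps, ∃ a ∈ A, a • wp ns r.1 • mset N x = s} with hU
  have hUX : U ⊆ X := by
    rintro _ ⟨r, hr', a, ha, rfl⟩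
    exact ⟨a * wp ns r.1, mul_mem (hA ha) (hr r hr'), mul_smul _ _ _⟩
  have hXf : X.Finite := by
    refine (Set.finite_range fun g : G => (g : Equiv.Perm ℕ) • mset N x).subset ?_
    rintro _ ⟨g, hg, rfl⟩
    exact ⟨⟨g, hg⟩, rfl⟩
  have hn : n ≤ U.ncard := by
    rw [ble_iff, pc_eq] at h
    refine h.trans ?_
    let κ : Finset ℕ → ℕ := fun s => if h : ∃ y, mset N y = s then hsh N m h.choose else 0
    have hκ : ∀ y, κ (mset N y) = hsh N m y := fun y => by
      have h3 : ∃ z, mset N z = mset N y := ⟨y, rfl⟩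
      simp only [κ, dif_pos h3]
      exact hsh_eq h3.choose_spec
    rw [← Set.ncard_coe_finset]
    refine le_trans (Set.ncard_le_ncard ?_ ((hXf.subset hUX).image κ))
      (Set.ncard_image_le (hXf.subset hUX))
    intro j hj
    obtain ⟨r, hr', h3⟩ := (testBit_orL _ _ _).1 (mem_mset.1 hj).2
    obtain ⟨y, hy, rfl⟩ := (T3.testBit_orM _ _ _ _).1 h3
    have := T3.mem_orbit (G := Equiv.Perm ℕ) (fun y => mset N (y >>> N)) (fun _ => True) A
      (inv_mem h0) (inv_mem h1) (inv_mem h2) (fun z _ => ⟨trivial, mset_appW_two hns a0 z⟩)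
      (fun z _ => ⟨trivial, mset_appW_two hns a1 z⟩)
      (fun z _ => ⟨trivial, mset_appW_two hns a2 z⟩) r.2
      (x := appW (rep N 2) ns (invW r.1) (salt N x)) trivial y hy
    obtain ⟨a, ha⟩ := this.2
    refine ⟨mset N (y >>> N), ⟨r, hr', a, a.2, ?_⟩, hκ _⟩
    dsimp only at ha
    rw [← ha, mset_appW_two hns, wp_invW, inv_inv, salt_shiftRight]
    rfl
  have e := card_eq_orbit_mul_stab G (mset N x)
  have hBS : B ≤ G ⊓ stabilizer (Equiv.Perm ℕ) (mset N x) := fun b hb => ⟨hB hb, hBx b hb⟩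
  have : Finite ↥(G ⊓ stabilizer (Equiv.Perm ℕ) (mset N x)) :=
    Finite.of_injective _ (Subgroup.inclusion_injective inf_le_left)
  have : Finite B := Finite.of_injective _ (Subgroup.inclusion_injective hB)
  have l1 := Subgroup.card_le_of_le hBS
  have l2 := Set.ncard_le_ncard hUX hXf
  have p1 : 0 < Nat.card B := Nat.card_pos
  have p2 : 0 < Nat.card G := Nat.card_pos
  rw [← hX] at e
  have l3 : X.ncard ≤ n := by
    by_contra h3
    have := Nat.mul_le_mul (not_le.1 h3) l1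
    nlinarith
  have l4 : X.ncard = n := by omega
  have l5 : Nat.card ↥(G ⊓ stabilizer (Equiv.Perm ℕ) (mset N x)) ≤ Nat.card B := by
    rw [l4] at e
    have : 0 < n := Nat.pos_of_ne_zero fun h0 => by rw [h0, zero_mul] at e; omega
    exact Nat.le_of_mul_le_mul_left (e ▸ hc) this
  have hS := Subgroup.eq_of_le_of_card_ge hBS l5
  have hUX' := Set.eq_of_subset_of_ncard_le hUX (by omega) hXf
  have k1 : ∀ g ∈ G, g • mset N x = mset N x → g ∈ B := fun g hg h3 => hS ▸ ⟨hg, h3⟩
  refine ⟨k1, by rw [e, l4, ← hS], fun g hg => ?_⟩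
  have : g • mset N x ∈ U := hUX' ▸ ⟨g, hg, rfl⟩
  obtain ⟨r, hr', a, ha, h3⟩ := this
  refine ⟨r, hr', a, ha, (a * wp ns r.1)⁻¹ * g, k1 _ (mul_mem (inv_mem (mul_mem (hA ha)
    (hr r hr'))) hg) ?_, by group⟩
  rw [mul_smul, ← h3, ← mul_smul a, inv_smul_smul]

end Cfsg.Agent.R3
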