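import Cfsg.Agent.R3.Hit
import Cfsg.Agent.Comp.MatModel

/-!
Recognition of rank three groups: a variant of the last step with two possible models, transport of
invariant sets along an automorphism, a Sylow counting argument.
-/

set_option autoImplicit false

namespace Cfsg.Agent.R3

open Cfsg.Agent.Comp MulAction
open scoped Pointwise

theorem mul_card_le_of_forest {N : ℕ} {ns : List Net} (hns : okNs N ns = true) {h : ℕ → ℕ}
    {G K : Subgroup (Equiv.Perm ℕ)} [Finite G] (hK : K ≤ G) {x : ℕ}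
    (hx : ∀ g ∈ K, g • mset N x = mset N x) {a0 a1 a2 : List ℕ} (h0 : wp ns a0 ∈ G)
    (h1 : wp ns a1 ∈ G) (h2 : wp ns a2 ∈ G) {tr : T3} {n t : ℕ}
    (hn : Nat.ble n (pc t (forestH N h ns a0 a1 a2 x [([], tr)])) = true) :
    n * Nat.card K ≤ Nat.card G := by
  classical
  have hX := hit_forest hns (h := h) (x := x) (Q := (· ∈ G)) h0 h1 h2 (reps := [([], tr)])
    (List.forall_mem_singleton.2 (one_mem _)) ((beq_iff _ _).2 rfl)
  have hYf : {s | ∃ g ∈ G, g • mset N x = s}.Finite := by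
    refine (Set.finite_range fun g : G => (g : Equiv.Perm ℕ) • mset N x).subset ?_
    rintro _ ⟨g, hg, rfl⟩
    exact ⟨⟨g, hg⟩, rfl⟩
  have : Finite ↥(G ⊓ stabilizer (Equiv.Perm ℕ) (mset N x)) :=
    Finite.of_injective _ (Subgroup.inclusion_injective inf_le_left)
  rw [card_eq_orbit_mul_stab G (mset N x)]
  refine Nat.mul_le_mul ?_ (Subgroup.card_le_of_le fun g hg => ⟨hK hg, hx g hg⟩)
  rw [ble_iff, pc_eq] at hn
  refine hn.trans ?_
  let κ : Finset ℕ → ℕ := fun s => if h' : ∃ y, mset N y = s then h (hsh N 0 h'.choose) else 0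
  have hκ : ∀ y, κ (mset N y) = h (hsh N 0 y) := fun y => by
    have h3 : ∃ z, mset N z = mset N y := ⟨y, rfl⟩
    simp only [κ, dif_pos h3]
    rw [hsh_eq h3.choose_spec]
  rw [← Set.ncard_coe_finset]
  refine le_trans (Set.ncard_le_ncard ?_ (hYf.image κ)) (Set.ncard_image_le hYf)
  intro j hj
  obtain ⟨u, hu, a, ha, y, e, rfl⟩ := hX j (mem_mset.1 hj).2
  exact ⟨mset N y, ⟨a * u, mul_mem ha hu, by rw [mul_smul, e]⟩, hκ y⟩

theorem smul_mset_of_maps {N x : ℕ} {g : Equiv.Perm ℕ} (h : ∀ i ∈ mset N x, g i ∈ mset N x) :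
    g • mset N x = mset N x :=
  Finset.eq_of_subset_of_card_le (fun _ hi => by
    obtain ⟨j, hj, rfl⟩ := Finset.mem_smul_finset.1 hi
    exact h j hj) (Finset.card_smul_finset _ _).ge

/-- The masks `T`, `T'` correspond under two labellings. -/
noncomputable def corB (N n : ℕ) (l l' : ℕ → ℕ) (T T' : ℕ) : Bool :=
  and' (allB n fun i => and' (and' (Nat.blt (l i) N) (Nat.blt (l' i) N))
      (and' (or' (not' (tb T (l i))) (tb T' (l' i))) (or' (not' (tb T' (l' i))) (tb T (l i)))))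
    (subB T' (orLT n fun i => Nat.shiftLeft 1 (l' i)))

theorem maps_of_corB {N n : ℕ} {l l' : ℕ → ℕ} {T T' : ℕ} (h : corB N n l l' T T' = true)
    {g g' σ : Equiv.Perm ℕ} (h1 : RepBy n l g σ) (h2 : RepBy n l' g' σ)
    (hg : ∀ i ∈ mset N T, g i ∈ mset N T) : ∀ i ∈ mset N T', g' i ∈ mset N T' := by
  simp only [corB, and'_eq_true, allB_iff, blt_iff, or'_eq_true, not'_eq_true, tb_eq] at h
  intro x hx
  obtain ⟨i, hi, e⟩ := (testBit_orLT _ _ _).1 (of_subB h.2 (mem_mset.1 hx).2)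
  obtain rfl := (testBit_one_shl _ _).1 e
  have hj := h1.1.lt hi
  have h3 := hg _ (mem_mset.2 ⟨(h.1 i hi).1.1,
    (h.1 i hi).2.2.resolve_left (not_not.2 (mem_mset.1 hx).2)⟩)
  have e1 : g (l i) = l (σ i) := h1.2 i hi
  have e2 : g' (l' i) = l' (σ i) := h2.2 i hi
  rw [e1] at h3
  rw [e2]
  exact mem_mset.2 ⟨(h.1 _ hj).1.2, (h.1 _ hj).2.1.resolve_left (not_not.2 (mem_mset.1 h3).2)⟩

theorem Tr.conj {n p : ℕ} {H0 G' : Subgroup (Equiv.Perm ℕ)} [Finite H0] (h : Tr n p H0 G')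
    {σ : Equiv.Perm ℕ} (hs : Supp n σ) (hp : σ p = p) (hN : ∀ x ∈ H0, σ * x * σ⁻¹ ∈ H0) :
    ∃ G'' : Subgroup (Equiv.Perm ℕ), Tr n p H0 G'' ∧ Nonempty (G' ≃* G'') ∧
      ∀ g ∈ G', σ⁻¹ * g * σ ∈ G'' := by
  have : Finite (H0 : Set (Equiv.Perm ℕ)) := ‹Finite H0›
  have hN' := Subgroup.mem_normalizer_iff.1 (Subgroup.mem_normalizer_fintype hN)
  have hp' : σ⁻¹ p = p := by rw [Equiv.Perm.inv_eq_iff_eq, hp]
  have m : ∀ x, x ∈ G'.map (MulAut.conj σ⁻¹).toMonoidHom ↔ σ * x * σ⁻¹ ∈ G' := fun x =>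
    ⟨by rintro ⟨y, hy, rfl⟩; simpa [mul_assoc] using hy,
      fun hx => ⟨_, hx, by simp [mul_assoc]⟩⟩
  refine ⟨_, ⟨fun x hx => ?_, fun x => ?_⟩,
    ⟨G'.equivMapOfInjective _ (MulAut.conj σ⁻¹).injective⟩, fun g hg => (m _).2 ?_⟩
  · have : Supp n (σ⁻¹ * (σ * x * σ⁻¹) * σ) := (hs.inv.mul (h.supp ((m x).1 hx))).mul hs
    change Supp n x
    simpa [mul_assoc] using this
  · rw [hN', h.stab, m, Equiv.Perm.mul_apply, Equiv.Perm.mul_apply, hp']
    exact and_congr_right fun _ => ⟨fun e => σ.injective (e.trans hp.symm), fun e => by rw [e, hp]⟩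
  · simpa [mul_assoc] using hg

/-- The last step of the recognition, when a permutation `σ` normalising the point stabiliser leads
to a second model. -/
theorem equiv_of_swap {N w : ℕ} {ns : List Net} (c : Ctx N w ns) {n p q D K E : ℕ} (hp : p < n)
    (hq : q < n) (hn : n ≤ N) {hws kws kills sg vs : List (List ℕ)} {σ : List ℕ}
    {goods : List (List ℕ × List ℕ × ℕ)} {G' G0 : Subgroup (Equiv.Perm ℕ)}
    (hT : Tr n p (gen ns hws) G') (hs : G0 ≤ suppSub n) (h0 : IsStab N G0 (gen ns hws) p E)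
    (hK : Known ns G0 K) (h1 : IsStab N (gen ns hws) (gen ns kws) q D)
    (hN : ∀ t : Equiv.Perm ℕ, (∀ x, x ∈ gen ns kws ↔ t * x * t⁻¹ ∈ gen ns kws) →
      ∃ k ∈ gen ns kws, ∃ s ∈ sg, ∀ x ∈ gen ns kws,
        x * ((wp ns s)⁻¹ * k * t) = (wp ns s)⁻¹ * k * t * x)
    {Ms : List ℕ} {es : List CE} (hC : and' (allL Ms (invAll ns kws))
      (and' (centB N w ns n kws Ms es 0) (allL sg fun s => suppW N w ns s n)) = true)
    (hD : invAll ns hws D = true)
    (hσ : and' (and' (suppW N w ns σ n) (normB N w ns [σ] hws vs))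
      (and' (mapsW ns σ p p) (mapsW ns σ q q)) = true)
    (hF : ∀ s ∈ sg, ∀ u ∈ cands es,
      or' (finB N w ns n p q D K Ms hws kills goods (appendR s u))
        (finB N w ns n p q D K Ms hws kills goods (appendR (invW σ) (appendR (appendR s u) σ)))
        = true)
    {t : Equiv.Perm ℕ} (ht : t ∈ G') (t1 : t p = q) (t2 : t q = p) : Nonempty (G' ≃* G0) := by
  simp only [and'_eq_true] at hC hσ
  have mem : ∀ x, x ∈ gen ns kws ↔ x ∈ G' ∧ x p = p ∧ x q = q := fun x =>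
    ⟨fun hx => ⟨hT.le (h1.le hx), h0.fix _ (h1.le hx), h1.fix _ hx⟩,
      fun hx => h1.stab _ ((hT.stab x).2 ⟨hx.1, hx.2.1⟩) hx.2.2⟩
  have t3 : t⁻¹ p = q := by rw [Equiv.Perm.inv_eq_iff_eq, t2]
  have t4 : t⁻¹ q = p := by rw [Equiv.Perm.inv_eq_iff_eq, t1]
  obtain ⟨k, hk, s, hs', h⟩ := hN t fun x => by
    rw [mem, mem]
    simp only [Equiv.Perm.mul_apply, t3, t4]
    constructor
    · rintro ⟨a1, a2, a3⟩
      exact ⟨mul_mem (mul_mem ht a1) (inv_mem ht), by rw [a3, t2], by rw [a2, t1]⟩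
    · rintro ⟨a1, a2, a3⟩
      refine ⟨by simpa [mul_assoc] using mul_mem (mul_mem (inv_mem ht) a1) ht,
        t.injective (by rw [a3, t1]), t.injective (by rw [a2, t2])⟩
  obtain ⟨k1, k2, k3⟩ := (mem k).1 hk
  obtain ⟨u, hu, e⟩ := cent_of_centB c hn hC.1 hC.2.1
    (((supp_of_suppW c ((allL_iff _ _).1 hC.2.2 s hs')).inv.mul (hT.supp k1)).mul (hT.supp ht))
    h (by simp)
  have e' : wp ns (appendR s u) = k * t := by rw [appendR_eq, wp_append, ← e]; group
  have m0 : wp ns (appendR s u) ∈ G' := e' ▸ mul_mem k1 ht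
  have m1 : wp ns (appendR s u) p = q := by rw [e', Equiv.Perm.mul_apply, t1, k3]
  have m2 : wp ns (appendR s u) q = p := by rw [e', Equiv.Perm.mul_apply, t2, k2]
  rcases (or'_eq_true _ _).1 (hF s hs' u hu) with hF | hF
  · exact ⟨MulEquiv.subgroupCongr (eq_of_finB c hp hq hn hT hs h0 hK h1 hC.1 hD m0 m1 m2 hF)⟩
  · have := finite_gen c.ok hws
    have s1 := wp_apply_of_mapsW c.ok (by omega) hσ.2.1
    have s2 := wp_apply_of_mapsW c.ok (by omega) hσ.2.2
    obtain ⟨G'', hT', ⟨f⟩, h2⟩ := hT.conj (supp_of_suppW c hσ.1.1) s1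
      (conj_mem_of_normB c hσ.1.2 _ (wp_mem_gen ns (List.mem_singleton_self _)))
    have e2 : wp ns (appendR (invW σ) (appendR (appendR s u) σ)) =
        (wp ns σ)⁻¹ * wp ns (appendR s u) * wp ns σ := by
      rw [appendR_eq (invW σ), appendR_eq _ σ, wp_append, wp_append, wp_invW, mul_assoc]
    refine ⟨f.trans (MulEquiv.subgroupCongr (eq_of_finB c hp hq hn hT' hs h0 hK h1 hC.1 hD
      (e2 ▸ h2 _ m0) ?_ ?_ hF))⟩
    · rw [e2, Equiv.Perm.mul_apply, Equiv.Perm.mul_apply, s1, m1, Equiv.Perm.inv_eq_iff_eq, s2]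
    · rw [e2, Equiv.Perm.mul_apply, Equiv.Perm.mul_apply, s2, m2, Equiv.Perm.inv_eq_iff_eq, s1]

/-- In a group of order 20160 a self-centralising element of order 7 is conjugate to its square. -/
theorem exists_conj_sq {Γ : Type*} [Group Γ] (hc : Nat.card Γ = 20160) {a : Γ}
    (ha : orderOf a = 7) (hC : ∀ x, x * a = a * x → x ∈ Subgroup.zpowers a) :
    ∃ x, x * a * x⁻¹ = a ^ 2 := by
  classical
  have : Finite Γ := Nat.finite_of_card_ne_zero (by omega)
  have : Fact (Nat.Prime 7) := ⟨by norm_num⟩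
  have : Fact (Nat.Prime 3) := ⟨by norm_num⟩
  have hS : Nat.card (Subgroup.zpowers a) = 7 := by rw [Nat.card_zpowers, ha]
  let P : Sylow 7 Γ := Sylow.ofCard (Subgroup.zpowers a) (by
    rw [hS, hc, show 20160 = 7 ^ 1 * 2880 by norm_num,
      Nat.factorization_mul (by norm_num) (by norm_num), Finsupp.add_apply,
      Nat.Prime.factorization_pow (by norm_num), Nat.factorization_eq_zero_of_not_dvd (by norm_num)]
    simp)
  have h1 := card_sylow_modEq_one 7 Γ
  rw [P.card_eq_index_normalizer] at h1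
  change (Subgroup.normalizer (Subgroup.zpowers a : Set Γ)).index ≡ 1 [MOD 7] at h1
  have h2 := Subgroup.index_mul_card (Subgroup.normalizer (Subgroup.zpowers a : Set Γ))
  have hcen : Subgroup.centralizer (Subgroup.zpowers a : Set Γ) = Subgroup.zpowers a :=
    le_antisymm (fun x hx => hC x (hx a (Subgroup.mem_zpowers a)).symm)
      (Subgroup.le_centralizer_iff_isMulCommutative.2 inferInstance)
  have h3 := Subgroup.card_eq_card_quotient_mul_card_subgroup
    (Subgroup.zpowers a).normalizerMonoidHom.ker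
  rw [Nat.card_congr (QuotientGroup.quotientKerEquivRange _).toEquiv,
    Subgroup.normalizerMonoidHom_ker, hcen,
    Nat.card_congr (Subgroup.subgroupOfEquivOfLe Subgroup.le_normalizer).toEquiv, hS] at h3
  have h4 := Subgroup.card_subgroup_dvd_card (Subgroup.zpowers a).normalizerMonoidHom.range
  rw [IsCyclic.card_mulAut, hS, Nat.totient_prime (by norm_num)] at h4
  have h5 : 3 ∣ Nat.card (Subgroup.zpowers a).normalizerMonoidHom.range := by
    rw [h3, hc] at h2
    have := Nat.le_of_dvd (by norm_num) h4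
    unfold Nat.ModEq at h1
    generalize Nat.card (Subgroup.zpowers a).normalizerMonoidHom.range = d at *
    interval_cases d <;> omega
  obtain ⟨y, h6⟩ := exists_prime_orderOf_dvd_card' 3 h5
  obtain ⟨x, hx⟩ := y.2
  rw [← Subgroup.orderOf_coe, ← hx] at h6
  obtain ⟨k, hk, e⟩ : ∃ k < 7, a ^ k = x * a * (x : Γ)⁻¹ := by
    have := (Subgroup.mem_normalizer_iff.1 x.2 a).1 (Subgroup.mem_zpowers a)
    rw [mem_zpowers_iff_mem_range_orderOf, ha, Finset.mem_image] at this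
    obtain ⟨k, hk, e⟩ := this
    exact ⟨k, Finset.mem_range.1 hk, e⟩
  have key : ∀ j : ℕ, (x : Γ) ^ j * a * ((x : Γ) ^ j)⁻¹ = a ^ k ^ j := fun j => by
    induction j with
    | zero => simp
    | succ j ih => rw [pow_succ', pow_succ' k, pow_mul, e, conj_pow, ← ih]; group
  have h7 : a ^ k ^ 3 = a ^ 1 := by
    have := congrArg (fun φ : MulAut (Subgroup.zpowers a) => (φ ⟨a, Subgroup.mem_zpowers a⟩ : Γ))
      (h6 ▸ pow_orderOf_eq_one ((Subgroup.zpowers a).normalizerMonoidHom x))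
    rw [← map_pow] at this
    rw [← key, pow_one]
    exact this
  have h8 : k ≠ 1 := by
    rintro rfl
    have : (Subgroup.zpowers a).normalizerMonoidHom x = 1 := by
      rw [← MonoidHom.mem_ker, Subgroup.normalizerMonoidHom_ker, hcen]
      exact hC x (by rw [pow_one, eq_mul_inv_iff_mul_eq] at e; exact e.symm)
    rw [this, orderOf_one] at h6
    omega
  rw [pow_eq_pow_iff_modEq, ha] at h7
  have h9 : k = 2 ∨ k = 4 := by
    unfold Nat.ModEq at h7
    interval_cases k <;> omega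
  rcases h9 with rfl | rfl
  · exact ⟨x, e.symm⟩
  · exact ⟨x ^ 2, by rw [key, pow_eq_pow_iff_modEq, ha]; rfl⟩

end Cfsg.Agent.R3
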